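import Mathlib
import Cfsg.Agent.Classification.FourGenMain
import Cfsg.Agent.S0219

/-!
# Fusion simple groups with a normal four-group: the local situation (S3102)

`Loc S V`: `S` is a Sylow 2-subgroup of `X` without a normal `E₈`, `X` has no normal subgroup of index two,
`V` is a normal four-group of `X` and no involution of `V` is central.
-/

set_option autoImplicit false
set_option linter.unusedSectionVars false

open Subgroup
open scoped commutatorElement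

namespace Cfsg.Agent.H285.Fs

variable {X : Type*} [Group X] [Finite X]

/-- The local situation. -/
structure Loc (S V : Subgroup X) : Prop where
  syl : ∃ P : Sylow 2 X, (P : Subgroup X) = S
  noE : ∀ E : Subgroup X, E ≤ S → (∀ a ∈ E, a * a = 1) → (∀ s ∈ S, ∀ a ∈ E, s * a * s⁻¹ ∈ E) → Nat.card E ≤ 4
  noIdx : ∀ N : Subgroup X, N.Normal → N.index ≠ 2
  vn : V.Normal
  v2 : ∀ v ∈ V, v * v = 1
  v4 : Nat.card V = 4
  nc : ∀ v ∈ V, v ≠ 1 → ∃ g : X, g * v * g⁻¹ ≠ v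

/-! ### general lemmas -/

theorem two_mul_card_le {A B : Subgroup X} (h : A ≤ B) (hne : A ≠ B) : 2 * Nat.card A ≤ Nat.card B := by
  have h1 : Nat.card A ∣ Nat.card B := Subgroup.card_dvd_of_le h
  obtain ⟨k, hk⟩ := h1
  have hA : 0 < Nat.card A := Nat.card_pos
  have hB : 0 < Nat.card B := Nat.card_pos
  have hk0 : k ≠ 0 := by rintro rfl; omega
  have hk1 : k ≠ 1 := by
    rintro rfl
    exact hne (Subgroup.eq_of_le_of_card_ge h (by omega))
  rw [hk, mul_comm]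
  exact Nat.mul_le_mul_left _ (by omega)

/-- A normal subgroup containing "half" of a Sylow 2-subgroup contains it. -/
theorem le_of_idx (hI : ∀ N : Subgroup X, N.Normal → N.index ≠ 2) (P : Sylow 2 X) (C : Subgroup X) (hC : C.Normal)
    (h : ∀ s ∈ (P : Subgroup X), ∀ s' ∈ (P : Subgroup X), s ∉ C → s' ∉ C → s * s' ∈ C) : (P : Subgroup X) ≤ C := by
  by_contra hcon
  obtain ⟨s, hs, hsC⟩ := SetLike.not_le_iff_exists.1 hcon
  have hsur : Function.Surjective (QuotientGroup.mk' C) := QuotientGroup.mk'_surjective C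
  let T : Sylow 2 (X ⧸ C) := P.mapSurjective hsur
  have hT : (T : Subgroup (X ⧸ C)) = (P : Subgroup X).map (QuotientGroup.mk' C) := rfl
  have hss : QuotientGroup.mk' C s * QuotientGroup.mk' C s = 1 := by
    rw [← map_mul]
    exact (QuotientGroup.eq_one_iff _).2 (h s hs s hs hsC hsC)
  have hs1 : QuotientGroup.mk' C s ≠ 1 := fun e => hsC ((QuotientGroup.eq_one_iff _).1 e)
  have hgen : ∀ y ∈ (T : Subgroup (X ⧸ C)), y = 1 ∨ y = QuotientGroup.mk' C s := by
    intro y hy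
    rw [hT] at hy
    obtain ⟨t, ht, rfl⟩ := hy
    by_cases htC : t ∈ C
    · exact Or.inl ((QuotientGroup.eq_one_iff _).2 htC)
    · refine Or.inr ?_
      have h1 : QuotientGroup.mk' C t * QuotientGroup.mk' C s = 1 := by
        rw [← map_mul]
        exact (QuotientGroup.eq_one_iff _).2 (h t ht s hs htC hsC)
      rw [eq_inv_of_mul_eq_one_left h1]
      exact (eq_inv_of_mul_eq_one_left hss).symm
  have hcyc : IsCyclic (T : Subgroup (X ⧸ C)) := by
    refine ⟨⟨QuotientGroup.mk' C s, by rw [hT]; exact ⟨s, hs, rfl⟩⟩, ?_⟩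
    rintro ⟨y, hy⟩
    rcases hgen y hy with h1 | h1
    · exact ⟨0, Subtype.ext (by simp [h1])⟩
    · exact ⟨1, Subtype.ext (by simp [h1])⟩
  have heven : Even (Nat.card (X ⧸ C)) := by
    rw [even_iff_two_dvd]
    have h2 : orderOf (QuotientGroup.mk' C s) = 2 := orderOf_eq_prime (by rw [pow_two]; exact hss) hs1
    rw [← h2]
    exact orderOf_dvd_natCard _
  obtain ⟨H, hH⟩ := S0219.result heven T hcyc
  have hHn : H.Normal := Subgroup.normal_of_index_eq_two hH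
  exact hI (H.comap (QuotientGroup.mk' C)) (hHn.comap _)
    (by rw [Subgroup.index_comap_of_surjective H hsur]; exact hH)

/-- Fixed points of a 2-group on a section. -/
theorem exists_mid {P : Type*} [Group P] [Finite P] (hP : IsPGroup 2 P) (A M : Subgroup P) (hA : A.Normal)
    (hM : M.Normal) (hne : ∃ m ∈ M, m ∉ A) :
    ∃ m ∈ M, m ∉ A ∧ m * m ∈ A ∧ ∀ s : P, s * m * s⁻¹ * m⁻¹ ∈ A := by
  classical
  have := hA
  have hsur : Function.Surjective (QuotientGroup.mk' A) := QuotientGroup.mk'_surjective A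
  let N : Subgroup (P ⧸ A) := M.map (QuotientGroup.mk' A)
  have hN : N.Normal := hM.map _ hsur
  have hPQ : IsPGroup 2 (P ⧸ A) := hP.to_quotient A
  have hNt : Nontrivial N := by
    obtain ⟨m, hm, hmA⟩ := hne
    refine ⟨⟨⟨QuotientGroup.mk' A m, ⟨m, hm, rfl⟩⟩, 1, ?_⟩⟩
    intro e
    exact hmA ((QuotientGroup.eq_one_iff _).1 (congrArg Subtype.val e))
  have : Fact (Nat.Prime 2) := ⟨Nat.prime_two⟩
  -- the action of P/A on N by conjugation
  have hfix : 2 ∣ Nat.card (MulAction.fixedPoints (ConjAct (P ⧸ A)) N) := by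
    have h1 : IsPGroup 2 (ConjAct (P ⧸ A)) := hPQ
    have h2 : 2 ∣ Nat.card N := by
      have h3 : IsPGroup 2 N := hPQ.to_subgroup N
      obtain ⟨k, hk⟩ := h3.exists_card_eq
      have : 1 < Nat.card N := Finite.one_lt_card
      rcases Nat.eq_zero_or_pos k with h0 | h0
      · rw [h0, pow_zero] at hk; omega
      · rw [hk]; exact dvd_pow_self 2 (by omega)
    exact (h1.card_modEq_card_fixedPoints N).dvd_iff (dvd_refl 2) |>.1 h2
  -- the subgroup of fixed points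
  let F : Subgroup (P ⧸ A) := N ⊓ center (P ⧸ A)
  have hF : 2 ∣ Nat.card F := by
    have e : MulAction.fixedPoints (ConjAct (P ⧸ A)) N ≃ F := by
      refine ⟨fun x => ⟨(x.1 : P ⧸ A), x.1.2, ?_⟩, fun y => ⟨⟨y.1, y.2.1⟩, ?_⟩, ?_, ?_⟩
      · show (x.1 : P ⧸ A) ∈ center (P ⧸ A)
        rw [mem_center_iff]
        intro g
        have h1 := congrArg Subtype.val (x.2 (ConjAct.toConjAct g))
        have h2 : g * (x.1 : P ⧸ A) * g⁻¹ = x.1 := by
          simpa [ConjAct.Subgroup.val_conj_smul, ConjAct.toConjAct_smul] using h1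
        rw [mul_inv_eq_iff_eq_mul] at h2
        exact h2
      · intro g
        refine Subtype.ext ?_
        have h1 := mem_center_iff.1 y.2.2 (ConjAct.ofConjAct g)
        rw [ConjAct.Subgroup.val_conj_smul, ConjAct.smul_def, h1, mul_inv_cancel_right]
      · intro x; rfl
      · intro y; rfl
    rwa [Nat.card_congr e] at hfix
  obtain ⟨⟨f, hf⟩, hf2⟩ := exists_prime_orderOf_dvd_card' (G := F) 2 hF
  have hf2' : orderOf f = 2 := by
    rw [← hf2]; exact Subgroup.orderOf_coe (⟨f, hf⟩ : F)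
  obtain ⟨⟨m, hm, hmf⟩, hfc⟩ := hf
  refine ⟨m, hm, ?_, ?_, ?_⟩
  · intro hmA
    have h1 : f = 1 := by rw [← hmf]; exact (QuotientGroup.eq_one_iff _).2 hmA
    rw [h1, orderOf_one] at hf2'
    omega
  · rw [← QuotientGroup.eq_one_iff (N := A)]
    have h1 : f * f = 1 := by rw [← pow_two, ← hf2', pow_orderOf_eq_one]
    rw [← hmf] at h1
    exact h1
  · intro s
    rw [← QuotientGroup.eq_one_iff (N := A)]
    have h1 := mem_center_iff.1 hfc (QuotientGroup.mk' A s)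
    rw [← hmf] at h1
    have h2 : QuotientGroup.mk' A (s * m * s⁻¹ * m⁻¹) = 1 := by
      rw [map_mul, map_mul, map_mul, map_inv, map_inv, h1]
      group
    exact h2

/-- `exists_mid` for a subgroup `S` of `X`. -/
theorem exists_mid' {S : Subgroup X} (hS : IsPGroup 2 S) {A M : Subgroup X} (hMS : M ≤ S)
    (hA : ∀ s ∈ S, ∀ a ∈ A, s * a * s⁻¹ ∈ A) (hM : ∀ s ∈ S, ∀ a ∈ M, s * a * s⁻¹ ∈ M)
    (hne : ∃ m ∈ M, m ∉ A) :
    ∃ m ∈ M, m ∉ A ∧ m * m ∈ A ∧ ∀ s ∈ S, s * m * s⁻¹ * m⁻¹ ∈ A := by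
  obtain ⟨m, hm, hmA⟩ := hne
  obtain ⟨⟨m', hm'S⟩, h1, h2, h3, h4⟩ := exists_mid hS (A.subgroupOf S) (M.subgroupOf S)
    ⟨fun a ha s => hA s s.2 a ha⟩ ⟨fun a ha s => hM s s.2 a ha⟩
    ⟨⟨m, hMS hm⟩, hm, hmA⟩
  exact ⟨m', h1, h2, h3, fun s hs => h4 ⟨s, hs⟩⟩

/-- A minimal normal subgroup above `A` inside a normal 2-group. -/
theorem exists_min {A Q : Subgroup X} (hQ : IsPGroup 2 Q) (hA : A.Normal) (hQn : Q.Normal) (h : A ≤ Q) (hne : A ≠ Q) :
    ∃ M : Subgroup X, M.Normal ∧ A ≤ M ∧ A ≠ M ∧ M ≤ Q ∧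
      (∀ N : Subgroup X, N.Normal → A ≤ N → N ≤ M → N = A ∨ N = M) ∧
      (∀ m ∈ M, m * m ∈ A) ∧ (∀ m ∈ M, ∀ n ∈ M, n * m * n⁻¹ * m⁻¹ ∈ A) := by
  obtain ⟨M, ⟨hMn, hAM, hne', hMQ⟩, hmin⟩ := Set.Finite.exists_minimal
    (Set.toFinite {M : Subgroup X | M.Normal ∧ A ≤ M ∧ A ≠ M ∧ M ≤ Q}) ⟨Q, hQn, h, hne, le_rfl⟩
  have hmin' : ∀ N : Subgroup X, N.Normal → A ≤ N → N ≤ M → N = A ∨ N = M := by
    intro N hN hAN hNM
    by_cases hc : N = A
    · exact Or.inl hc
    · exact Or.inr (le_antisymm hNM (hmin ⟨hN, hAN, fun e => hc e.symm, hNM.trans hMQ⟩ hNM))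
  let N : Subgroup X :=
    { carrier := {m | m ∈ M ∧ m * m ∈ A ∧ ∀ n ∈ M, n * m * n⁻¹ * m⁻¹ ∈ A}
      one_mem' := ⟨M.one_mem, by simp [A.one_mem], fun n _ => by simp [A.one_mem]⟩
      mul_mem' := by
        rintro a b ⟨ha, ha2, hac⟩ ⟨hb, hb2, hbc⟩
        refine ⟨M.mul_mem ha hb, ?_, ?_⟩
        · have e : a * b * (a * b) = (a * b * a⁻¹ * b⁻¹) * (b * (a * a) * b⁻¹) * (b * b) := by group
          rw [e]
          exact A.mul_mem (A.mul_mem (hbc a ha) (hA.conj_mem _ ha2 b)) hb2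
        · intro n hn
          have e : n * (a * b) * n⁻¹ * (a * b)⁻¹ =
              (n * a * n⁻¹ * a⁻¹) * (a * (n * b * n⁻¹ * b⁻¹) * a⁻¹) := by group
          rw [e]
          exact A.mul_mem (hac n hn) (hA.conj_mem _ (hbc n hn) a)
      inv_mem' := by
        rintro a ⟨ha, ha2, hac⟩
        refine ⟨M.inv_mem ha, ?_, ?_⟩
        · have e : a⁻¹ * a⁻¹ = (a * a)⁻¹ := by group
          rw [e]; exact A.inv_mem ha2
        · intro n hn
          have e : n * a⁻¹ * n⁻¹ * a⁻¹⁻¹ = a⁻¹ * (n * a * n⁻¹ * a⁻¹)⁻¹ * a := by group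
          rw [e]
          have := hA.conj_mem _ (A.inv_mem (hac n hn)) a⁻¹
          rwa [inv_inv] at this }
  have hNn : N.Normal := by
    refine ⟨?_⟩
    rintro a ⟨ha, ha2, hac⟩ g
    refine ⟨hMn.conj_mem _ ha g, ?_, ?_⟩
    · have e : g * a * g⁻¹ * (g * a * g⁻¹) = g * (a * a) * g⁻¹ := by group
      rw [e]; exact hA.conj_mem _ ha2 g
    · intro n hn
      have e : n * (g * a * g⁻¹) * n⁻¹ * (g * a * g⁻¹)⁻¹ =
          g * ((g⁻¹ * n * g) * a * (g⁻¹ * n * g)⁻¹ * a⁻¹) * g⁻¹ := by group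
      rw [e]
      have h1 := hMn.conj_mem _ hn g⁻¹
      rw [inv_inv] at h1
      exact hA.conj_mem _ (hac _ h1) g
  have hAN : A ≤ N := by
    intro a ha
    exact ⟨hAM ha, A.mul_mem ha ha, fun n _ => A.mul_mem (hA.conj_mem _ ha n) (A.inv_mem ha)⟩
  have hNM : N ≤ M := fun a ha => ha.1
  have hMp : IsPGroup 2 M := hQ.to_le hMQ
  have hex : ∃ m ∈ M, m ∉ A := by
    by_contra hcon
    push Not at hcon
    exact hne' (le_antisymm hAM hcon)
  obtain ⟨m, hm, hmA, hm2, hmc⟩ := exists_mid' hMp le_rfl (fun s _ a ha => hA.conj_mem _ ha s)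
    (fun s _ a ha => hMn.conj_mem _ ha s) hex
  have hNe : N = M := by
    rcases hmin' N hNn hAN hNM with h1 | h1
    · exact absurd (h1 ▸ (⟨hm, hm2, hmc⟩ : m ∈ N)) hmA
    · exact h1
  refine ⟨M, hMn, hAM, hne', hMQ, hmin', ?_, ?_⟩
  · intro m hm; rw [← hNe] at hm; exact hm.2.1
  · intro m hm n hn; rw [← hNe] at hm; exact hm.2.2 n hn

end Cfsg.Agent.H285.Fs
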