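import Cfsg.Agent.H285.FsA

/-!
# The local situation: `V` is central in `S`, the subgroup `W` with `W / V = Ω₁(Z(S / V))`
-/

set_option autoImplicit false
set_option linter.unusedSectionVars false

open Subgroup

namespace Cfsg.Agent.H285.Fs

variable {X : Type*} [Group X] [Finite X] {S V : Subgroup X}

theorem perm_cube : ∀ σ : Equiv.Perm (Fin 3), Equiv.Perm.sign σ = 1 → σ * σ * σ = 1 := by decide

theorem perm_trans : ∀ σ : Equiv.Perm (Fin 3), Equiv.Perm.sign σ = 1 → σ ≠ 1 →
    ∀ i j : Fin 3, i = j ∨ σ i = j ∨ (σ * σ) i = j := by decide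

theorem normal_le {N : Subgroup X} (hp : IsPGroup 2 N) (hn : N.Normal) (P : Sylow 2 X) : N ≤ (P : Subgroup X) := by
  obtain ⟨Q, hQ⟩ := hp.exists_le_sylow
  obtain ⟨g, rfl⟩ := MulAction.exists_smul_eq X Q P
  intro n hn'
  have h1 := hQ (hn.conj_mem n hn' g⁻¹)
  rw [Sylow.coe_subgroup_smul, Subgroup.mem_pointwise_smul_iff_inv_smul_mem]
  simpa [MulAut.smul_def] using h1

namespace Loc

theorem isP (h : Loc S V) : IsPGroup 2 S := by
  obtain ⟨P, rfl⟩ := h.syl
  exact P.2

theorem vp (h : Loc S V) : IsPGroup 2 V := by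
  intro v
  refine ⟨1, ?_⟩
  rw [pow_one, pow_two]
  exact Subtype.ext (h.v2 v v.2)

theorem vS (h : Loc S V) : V ≤ S := by
  obtain ⟨P, rfl⟩ := h.syl
  exact normal_le h.vp h.vn P

theorem v_comm (h : Loc S V) {a b : X} (ha : a ∈ V) (hb : b ∈ V) : a * b = b * a := by
  have h1 := h.v2 _ (V.mul_mem ha hb)
  have h2 := h.v2 _ ha
  have h3 := h.v2 _ hb
  have ha' : a⁻¹ = a := inv_eq_of_mul_eq_one_left h2
  have hb' : b⁻¹ = b := inv_eq_of_mul_eq_one_left h3
  have h4 : (a * b)⁻¹ = a * b := inv_eq_of_mul_eq_one_left h1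
  rw [← h4, mul_inv_rev, ha', hb']

theorem v_inv (h : Loc S V) {a : X} (ha : a ∈ V) : a⁻¹ = a := inv_eq_of_mul_eq_one_left (h.v2 _ ha)

/-- The three involutions of `V`, numbered. -/
theorem exists_equiv (h : Loc S V) : Nonempty ({v : V // v ≠ 1} ≃ Fin 3) := by
  classical
  have := Fintype.ofFinite V
  refine ⟨Fintype.equivFinOfCardEq ?_⟩
  rw [Fintype.card_subtype_compl, Fintype.card_subtype_eq, ← Nat.card_eq_fintype_card, h.v4]

/-- The action of `X` on the involutions of `V`. -/
def act (h : Loc S V) : X →* Equiv.Perm {v : V // v ≠ 1} where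
  toFun g :=
    { toFun := fun v => ⟨⟨g * v * g⁻¹, h.vn.conj_mem _ v.1.2 g⟩, fun e => v.2 (Subtype.ext (by
        have h1 := congrArg Subtype.val e
        simpa using h1))⟩
      invFun := fun v => ⟨⟨g⁻¹ * v * g, by simpa using h.vn.conj_mem _ v.1.2 g⁻¹⟩, fun e => v.2 (Subtype.ext (by
        have h1 := congrArg Subtype.val e
        have h2 : g * (g⁻¹ * (v : X) * g) * g⁻¹ = g * 1 * g⁻¹ := by rw [show g⁻¹ * (v : X) * g = 1 from h1]
        simpa [mul_assoc] using h2))⟩
      left_inv := fun v => Subtype.ext (Subtype.ext (by simp [mul_assoc]))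
      right_inv := fun v => Subtype.ext (Subtype.ext (by simp [mul_assoc])) }
  map_one' := by ext v; simp
  map_mul' a b := by ext v; simp [mul_assoc]

theorem act_apply (h : Loc S V) (g : X) (v : {v : V // v ≠ 1}) : ((h.act g v : V) : X) = g * v * g⁻¹ := rfl

theorem sign_act (h : Loc S V) (e : {v : V // v ≠ 1} ≃ Fin 3) (g : X) :
    Equiv.Perm.sign (e.permCongr (h.act g)) = 1 := by
  let f : X →* ℤˣ := (Equiv.Perm.sign).comp ((e.permCongrHom : _ ≃* Equiv.Perm (Fin 3)).toMonoidHom.comp h.act)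
  by_contra hcon
  have hf : f g ≠ 1 := hcon
  have h2 : f.ker.index = 2 := by
    rw [Subgroup.index_ker]
    have hr : f.range = ⊤ := by
      rw [eq_top_iff]
      intro u _
      rcases Int.units_eq_one_or u with h1 | h1
      · rw [h1]; exact one_mem _
      · rcases Int.units_eq_one_or (f g) with h3 | h3
        · exact absurd h3 hf
        · exact ⟨g, by rw [h1, h3]⟩
    rw [hr]
    simp
  exact h.noIdx _ inferInstance h2

theorem cube (h : Loc S V) (g : X) : h.act g * h.act g * h.act g = 1 := by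
  obtain ⟨e⟩ := h.exists_equiv
  have h1 := perm_cube _ (h.sign_act e g)
  have h2 : (e.permCongrHom (h.act g * h.act g * h.act g)) = 1 := by
    rw [map_mul, map_mul]; exact h1
  exact (MulEquiv.map_eq_one_iff _).1 h2

theorem vc (h : Loc S V) {v s : X} (hv : v ∈ V) (hs : s ∈ S) : s * v = v * s := by
  by_cases hv1 : v = 1
  · rw [hv1, mul_one, one_mul]
  obtain ⟨k, hk⟩ := h.isP ⟨s, hs⟩
  have h1 : h.act s ^ 2 ^ k = 1 := by
    rw [← map_pow]
    have : s ^ 2 ^ k = 1 := congrArg Subtype.val hk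
    rw [this, map_one]
  have h3 : h.act s ^ 3 = 1 := by
    have := h.cube s
    rw [pow_succ, pow_two]; exact this
  have h2 : h.act s = 1 := by
    rw [← orderOf_eq_one_iff]
    have hco : Nat.Coprime (2 ^ k) 3 := Nat.Coprime.pow_left k (by norm_num)
    exact Nat.eq_one_of_dvd_coprimes hco (orderOf_dvd_of_pow_eq_one h1) (orderOf_dvd_of_pow_eq_one h3)
  have h4 := h.act_apply s ⟨⟨v, hv⟩, fun e => hv1 (congrArg Subtype.val e)⟩
  rw [h2] at h4
  have h5 : v = s * v * s⁻¹ := h4
  rw [eq_mul_inv_iff_mul_eq] at h5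
  exact h5.symm

/-- `N(S)` is transitive on the involutions of `V`. -/
theorem tr (h : Loc S V) {u v : X} (hu : u ∈ V) (hv : v ∈ V) (hu1 : u ≠ 1) (hv1 : v ≠ 1) :
    ∃ x ∈ normalizer (S : Set X), x * u * x⁻¹ = v := by
  obtain ⟨e⟩ := h.exists_equiv
  obtain ⟨g, hg⟩ := h.nc u hu hu1
  let u' : {v : V // v ≠ 1} := ⟨⟨u, hu⟩, fun e => hu1 (congrArg Subtype.val e)⟩
  let v' : {v : V // v ≠ 1} := ⟨⟨v, hv⟩, fun e => hv1 (congrArg Subtype.val e)⟩
  have hne : e.permCongr (h.act g) ≠ 1 := by
    intro h1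
    have h2 : (e.permCongrHom (h.act g)) = 1 := h1
    have h3 : h.act g = 1 := (MulEquiv.map_eq_one_iff _).1 h2
    have h4 := h.act_apply g u'
    rw [h3] at h4
    exact hg h4.symm
  have h5 : ∃ k : X, k * u * k⁻¹ = v := by
    rcases perm_trans _ (h.sign_act e g) hne (e u') (e v') with h1 | h1 | h1
    · refine ⟨1, ?_⟩
      have : u' = v' := e.injective h1
      have h2 : u = v := congrArg (fun z : {v : V // v ≠ 1} => (z : X)) this
      rw [h2]; group
    · refine ⟨g, ?_⟩
      have h2 : e (h.act g u') = e v' := by simpa [Equiv.permCongr_apply] using h1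
      exact congrArg (fun z : {v : V // v ≠ 1} => (z : X)) (e.injective h2)
    · refine ⟨g * g, ?_⟩
      have h2 : e (h.act (g * g) u') = e v' := by
        rw [map_mul]
        simpa [Equiv.permCongr_apply] using h1
      exact congrArg (fun z : {v : V // v ≠ 1} => (z : X)) (e.injective h2)
  obtain ⟨k, hk⟩ := h5
  -- Frattini
  let C : Subgroup X := h.act.ker
  obtain ⟨P, hP⟩ := h.syl
  have hPC : (P : Subgroup X) ≤ C := by
    intro s hs
    rw [hP] at hs
    show h.act s = 1
    ext w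
    have h1 := h.act_apply s w
    have h2 := h.vc w.1.2 hs
    rw [h1, h2, mul_inv_cancel_right]
    rfl
  have htop : normalizer ((P : Subgroup X) : Set X) ⊔ C = ⊤ := Sylow.normalizer_sup_eq_top' P hPC
  have hk' : k ∈ normalizer ((P : Subgroup X) : Set X) ⊔ C := by rw [htop]; exact mem_top _
  obtain ⟨n, hn, c, hc, hnc⟩ := Subgroup.mem_sup_of_normal_right.1 hk'
  refine ⟨n, by rwa [hP] at hn, ?_⟩
  have hcu : c * u * c⁻¹ = u := by
    have h1 := h.act_apply c u'
    rw [show h.act c = 1 from hc] at h1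
    exact h1.symm
  rw [← hk, ← hnc]
  calc n * u * n⁻¹ = n * (c * u * c⁻¹) * n⁻¹ := by rw [hcu]
    _ = _ := by group

/-- An element of order three of the situation: it moves the involutions of `V` cyclically. -/
theorem cyc (h : Loc S V) {u v : X} (hu : u ∈ V) (hv : v ∈ V) (hu1 : u ≠ 1) (hv1 : v ≠ 1) (huv : u ≠ v) :
    ∃ x ∈ normalizer (S : Set X), x * u * x⁻¹ = v ∧ x * v * x⁻¹ = u * v ∧ x * (u * v) * x⁻¹ = u := by
  obtain ⟨x, hx, hxu⟩ := h.tr hu hv hu1 hv1
  let u' : {v : V // v ≠ 1} := ⟨⟨u, hu⟩, fun e => hu1 (congrArg Subtype.val e)⟩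
  have hx3 : x * (x * (x * u * x⁻¹) * x⁻¹) * x⁻¹ = u := by
    have h1 := congrArg (fun σ : Equiv.Perm {v : V // v ≠ 1} => ((σ u' : V) : X)) (h.cube x)
    simp only [Equiv.Perm.mul_apply, Equiv.Perm.one_apply, h.act_apply] at h1
    exact h1
  rw [hxu] at hx3
  have hw : x * v * x⁻¹ ∈ V := h.vn.conj_mem _ hv x
  have hw1 : x * v * x⁻¹ ≠ 1 := fun e => hv1 (by
    have := congrArg (fun z => x⁻¹ * z * x) e
    simpa [mul_assoc] using this)
  have hwv : x * v * x⁻¹ ≠ v := by
    intro e
    rw [e, e] at hx3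
    exact huv hx3.symm
  have hwu : x * v * x⁻¹ ≠ u := by
    intro e
    rw [e, hxu] at hx3
    exact huv hx3.symm
  have hcard : ∀ w ∈ V, w ≠ 1 → w ≠ u → w ≠ v → w = u * v := by
    intro w hw h1 h2 h3
    by_contra h4
    have huvV := V.mul_mem hu hv
    have huv1 : u * v ≠ 1 := by
      intro e
      have := eq_inv_of_mul_eq_one_left e
      rw [h.v_inv hv] at this
      exact huv this
    have huvu : u * v ≠ u := by
      intro e; exact hv1 (by simpa using e)
    have huvv : u * v ≠ v := by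
      intro e; exact hu1 (by simpa using e)
    classical
    have : Fintype V := Fintype.ofFinite V
    have h5 : ({⟨1, V.one_mem⟩, ⟨u, hu⟩, ⟨v, hv⟩, ⟨u * v, huvV⟩, ⟨w, hw⟩} : Finset V).card ≤ Fintype.card V :=
      Finset.card_le_univ _
    rw [← Nat.card_eq_fintype_card, h.v4, Finset.card_insert_of_notMem, Finset.card_insert_of_notMem,
      Finset.card_insert_of_notMem, Finset.card_insert_of_notMem, Finset.card_singleton] at h5
    · omega
    · simp only [Finset.mem_singleton, Subtype.mk.injEq]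
      exact fun e => h4 e.symm
    · simp only [Finset.mem_insert, Finset.mem_singleton, Subtype.mk.injEq]
      rintro (e | e)
      · exact huvv e.symm
      · exact h3 e.symm
    · simp only [Finset.mem_insert, Finset.mem_singleton, Subtype.mk.injEq]
      rintro (e | e | e)
      · exact huv e
      · exact huvu e.symm
      · exact h2 e.symm
    · simp only [Finset.mem_insert, Finset.mem_singleton, Subtype.mk.injEq]
      rintro (e | e | e | e)
      · exact hu1 e.symm
      · exact hv1 e.symm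
      · exact huv1 e.symm
      · exact h1 e.symm
  have h6 := hcard _ hw hw1 hwu hwv
  refine ⟨x, hx, hxu, h6, ?_⟩
  rw [← h6]; exact hx3

/-- Any element of `V` is one of `1, u, v, uv`. -/
theorem v_cases (h : Loc S V) {u v w : X} (hu : u ∈ V) (hv : v ∈ V) (hu1 : u ≠ 1) (hv1 : v ≠ 1) (huv : u ≠ v)
    (hw : w ∈ V) : w = 1 ∨ w = u ∨ w = v ∨ w = u * v := by
  by_contra hcon
  push Not at hcon
  obtain ⟨h1, h2, h3, h4⟩ := hcon
  have huvV := V.mul_mem hu hv
  have huv1 : u * v ≠ 1 := by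
    intro e
    have := eq_inv_of_mul_eq_one_left e
    rw [h.v_inv hv] at this
    exact huv this
  have huvu : u * v ≠ u := by
    intro e; exact hv1 (by simpa using e)
  have huvv : u * v ≠ v := by
    intro e; exact hu1 (by simpa using e)
  classical
  have : Fintype V := Fintype.ofFinite V
  have h5 : ({⟨1, V.one_mem⟩, ⟨u, hu⟩, ⟨v, hv⟩, ⟨u * v, huvV⟩, ⟨w, hw⟩} : Finset V).card ≤ Fintype.card V :=
    Finset.card_le_univ _
  rw [← Nat.card_eq_fintype_card, h.v4, Finset.card_insert_of_notMem, Finset.card_insert_of_notMem,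
    Finset.card_insert_of_notMem, Finset.card_insert_of_notMem, Finset.card_singleton] at h5
  · omega
  · simp only [Finset.mem_singleton, Subtype.mk.injEq]
    exact fun e => h4 e.symm
  · simp only [Finset.mem_insert, Finset.mem_singleton, Subtype.mk.injEq]
    rintro (e | e)
    · exact huvv e.symm
    · exact h3 e.symm
  · simp only [Finset.mem_insert, Finset.mem_singleton, Subtype.mk.injEq]
    rintro (e | e | e)
    · exact huv e
    · exact huvu e.symm
    · exact h2 e.symm
  · simp only [Finset.mem_insert, Finset.mem_singleton, Subtype.mk.injEq]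
    rintro (e | e | e | e)
    · exact hu1 e.symm
    · exact hv1 e.symm
    · exact huv1 e.symm
    · exact h1 e.symm

theorem exists_two (h : Loc S V) : ∃ u ∈ V, ∃ v ∈ V, u ≠ 1 ∧ v ≠ 1 ∧ u ≠ v := by
  obtain ⟨e⟩ := h.exists_equiv
  refine ⟨(e.symm 0).1, (e.symm 0).1.2, (e.symm 1).1, (e.symm 1).1.2, ?_, ?_, ?_⟩
  · exact fun h1 => (e.symm 0).2 (Subtype.ext h1)
  · exact fun h1 => (e.symm 1).2 (Subtype.ext h1)
  · intro h1
    have h2 : e.symm 0 = e.symm 1 := Subtype.ext (Subtype.ext h1)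
    have := e.symm.injective h2
    exact absurd this (by decide)

/-- The E8 killer. -/
theorem kill (h : Loc S V) {t : X} (ht : t ∈ S) (ht2 : t * t = 1)
    (hc : ∀ s ∈ S, s * t * s⁻¹ * t⁻¹ ∈ V) : t ∈ V := by
  have hti : t⁻¹ = t := inv_eq_of_mul_eq_one_left ht2
  let E : Subgroup X :=
    { carrier := {g | g ∈ V ∨ g * t ∈ V}
      one_mem' := Or.inl V.one_mem
      mul_mem' := by
        rintro a b (ha | ha) (hb | hb)
        · exact Or.inl (V.mul_mem ha hb)
        · refine Or.inr ?_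
          rw [mul_assoc]; exact V.mul_mem ha hb
        · refine Or.inr ?_
          have e : a * b * t = (a * t) * (t⁻¹ * b * t⁻¹⁻¹) := by rw [inv_inv]; group
          rw [e]
          exact V.mul_mem ha (h.vn.conj_mem _ hb t⁻¹)
        · refine Or.inl ?_
          have e : a * b = (a * t) * (t⁻¹ * (b * t) * t⁻¹⁻¹) * (t * t)⁻¹ := by rw [inv_inv]; group
          rw [e, ht2, inv_one, mul_one]
          exact V.mul_mem ha (h.vn.conj_mem _ hb t⁻¹)
      inv_mem' := by
        rintro a (ha | ha)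
        · exact Or.inl (V.inv_mem ha)
        · refine Or.inr ?_
          have e : a⁻¹ * t = (t * t) * (t⁻¹ * (a * t)⁻¹ * t⁻¹⁻¹) := by rw [inv_inv]; group
          rw [e, ht2, one_mul]
          exact h.vn.conj_mem _ (V.inv_mem ha) t⁻¹ }
  have hES : E ≤ S := by
    rintro a (ha | ha)
    · exact h.vS ha
    · have := S.mul_mem (h.vS ha) (S.inv_mem ht)
      rwa [mul_inv_cancel_right] at this
  have hE2 : ∀ a ∈ E, a * a = 1 := by
    rintro a (ha | ha)
    · exact h.v2 a ha
    · have h1 := h.vc ha ht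
      have h2 : a = (a * t) * t⁻¹ := by group
      have h3 : (a * t) * t⁻¹ = t⁻¹ * (a * t) := by rw [hti]; exact h1.symm
      calc a * a = ((a * t) * t⁻¹) * ((a * t) * t⁻¹) := by rw [← h2]
        _ = (a * t) * (t⁻¹ * (a * t)) * t⁻¹ := by group
        _ = (a * t) * ((a * t) * t⁻¹) * t⁻¹ := by rw [h3]
        _ = ((a * t) * (a * t)) * (t * t)⁻¹ := by group
        _ = 1 := by rw [h.v2 _ ha, ht2, inv_one, mul_one]
  have hEn : ∀ s ∈ S, ∀ a ∈ E, s * a * s⁻¹ ∈ E := by
    rintro s hs a (ha | ha)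
    · exact Or.inl (h.vn.conj_mem _ ha s)
    · refine Or.inr ?_
      have e : s * a * s⁻¹ * t = (s * (a * t) * s⁻¹) * (s * t * s⁻¹ * t⁻¹) := by
        calc s * a * s⁻¹ * t = s * a * (t * t) * s⁻¹ * t⁻¹ := by rw [ht2, mul_one, hti]
          _ = _ := by group
      rw [e]
      exact V.mul_mem (h.vn.conj_mem _ ha s) (hc s hs)
  have hcard := h.noE E hES hE2 hEn
  have hVE : V ≤ E := fun a ha => Or.inl ha
  have hVE' : V = E := Subgroup.eq_of_le_of_card_ge hVE (by rw [h.v4]; exact hcard)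
  rw [hVE']
  exact Or.inr (by show t * t ∈ V; rw [ht2]; exact V.one_mem)

end Loc

end Cfsg.Agent.H285.Fs
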