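import Cfsg.Agent.H285.FsB

/-!
# The subgroup `W` with `W / V = Ω₁(Z(S / V))`: homocyclic of type (4, 4)
-/

set_option autoImplicit false
set_option linter.unusedSectionVars false

open Subgroup

namespace Cfsg.Agent.H285.Fs

variable {X : Type*} [Group X] [Finite X] {S V : Subgroup X}

namespace Loc

/-- Four generator theorem for subgroups of `S`. -/
theorem card_le (h : Loc S V) {H R : Subgroup X} (hH : H ≤ S) (hR : ∀ x ∈ H, x * x ∈ R) :
    Nat.card H ≤ 16 * Nat.card R := by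
  have hE : Cfsg.Agent.Classification.FourGenKey.NoE8 ↥S := by
    intro E hEn _ hE2
    have h1 := h.noE (E.map S.subtype) (by rintro _ ⟨a, _, rfl⟩; exact a.2)
      (by
        rintro _ ⟨a, ha, rfl⟩
        have := congrArg Subtype.val (hE2 a ha)
        rw [pow_two] at this
        exact this)
      (by
        rintro s hs _ ⟨a, ha, rfl⟩
        exact ⟨⟨s, hs⟩ * a * ⟨s, hs⟩⁻¹, hEn.conj_mem a ha ⟨s, hs⟩, rfl⟩)
    rwa [Nat.card_congr (E.equivMapOfInjective _ S.subtype_injective).symm.toEquiv] at h1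
  have h1 := Cfsg.Agent.Classification.FourGenMain.card_le h.isP hE (H.subgroupOf S) (R.subgroupOf S) (by
    intro x hx
    rw [pow_two]
    exact hR x hx)
  rw [Nat.card_congr (Subgroup.subgroupOfEquivOfLe hH).toEquiv] at h1
  refine h1.trans (Nat.mul_le_mul_left _ ?_)
  have : Nat.card (R.subgroupOf S) = Nat.card ((R.subgroupOf S).map S.subtype) :=
    Nat.card_congr ((R.subgroupOf S).equivMapOfInjective _ S.subtype_injective).toEquiv
  rw [this]
  refine Subgroup.card_le_of_le ?_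
  rintro _ ⟨a, ha, rfl⟩
  exact ha

/-- `W / V = Ω₁(Z(S / V))`. -/
def W (h : Loc S V) : Subgroup X where
  carrier := {w | w ∈ S ∧ w * w ∈ V ∧ ∀ s ∈ S, s * w * s⁻¹ * w⁻¹ ∈ V}
  one_mem' := ⟨S.one_mem, by simp [V.one_mem], fun n _ => by simp [V.one_mem]⟩
  mul_mem' := by
    rintro a b ⟨ha, ha2, hac⟩ ⟨hb, hb2, hbc⟩
    refine ⟨S.mul_mem ha hb, ?_, ?_⟩
    · have e : a * b * (a * b) = (a * b * a⁻¹ * b⁻¹) * (b * (a * a) * b⁻¹) * (b * b) := by group
      rw [e]
      exact V.mul_mem (V.mul_mem (hbc a ha) (h.vn.conj_mem _ ha2 b)) hb2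
    · intro n hn
      have e : n * (a * b) * n⁻¹ * (a * b)⁻¹ =
          (n * a * n⁻¹ * a⁻¹) * (a * (n * b * n⁻¹ * b⁻¹) * a⁻¹) := by group
      rw [e]
      exact V.mul_mem (hac n hn) (h.vn.conj_mem _ (hbc n hn) a)
  inv_mem' := by
    rintro a ⟨ha, ha2, hac⟩
    refine ⟨S.inv_mem ha, ?_, ?_⟩
    · have e : a⁻¹ * a⁻¹ = (a * a)⁻¹ := by group
      rw [e]; exact V.inv_mem ha2
    · intro n hn
      have e : n * a⁻¹ * n⁻¹ * a⁻¹⁻¹ = a⁻¹ * (n * a * n⁻¹ * a⁻¹)⁻¹ * a := by group
      rw [e]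
      have := h.vn.conj_mem _ (V.inv_mem (hac n hn)) a⁻¹
      rwa [inv_inv] at this

theorem mem_W (h : Loc S V) {w : X} : w ∈ h.W ↔ w ∈ S ∧ w * w ∈ V ∧ ∀ s ∈ S, s * w * s⁻¹ * w⁻¹ ∈ V := Iff.rfl

theorem W_le (h : Loc S V) : h.W ≤ S := fun _ hw => hw.1

theorem V_le_W (h : Loc S V) : V ≤ h.W := by
  intro v hv
  refine ⟨h.vS hv, V.mul_mem hv hv, fun s hs => ?_⟩
  rw [h.vc hv hs]
  simp

theorem W_norm (h : Loc S V) {x w : X} (hx : x ∈ normalizer (S : Set X)) (hw : w ∈ h.W) : x * w * x⁻¹ ∈ h.W := by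
  obtain ⟨h1, h2, h3⟩ := hw
  refine ⟨(mem_normalizer_iff.1 hx w).1 h1, ?_, ?_⟩
  · have e : x * w * x⁻¹ * (x * w * x⁻¹) = x * (w * w) * x⁻¹ := by group
    rw [e]; exact h.vn.conj_mem _ h2 x
  · intro s hs
    have e : s * (x * w * x⁻¹) * s⁻¹ * (x * w * x⁻¹)⁻¹ =
          x * ((x⁻¹ * s * x) * w * (x⁻¹ * s * x)⁻¹ * w⁻¹) * x⁻¹ := by group
    rw [e]
    have h4 := (mem_normalizer_iff.1 (inv_mem hx) s).1 hs
    rw [inv_inv] at h4
    exact h.vn.conj_mem _ (h3 _ h4) x

theorem W_sq_one (h : Loc S V) {w : X} (hw : w ∈ h.W) (h2 : w * w = 1) : w ∈ V := h.kill hw.1 h2 hw.2.2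

/-- elements of `W` commute with elements of `S` up to `V` -/
theorem W_comm (h : Loc S V) {w s : X} (hw : w ∈ h.W) (hs : s ∈ S) : ∃ v ∈ V, s * w = v * (w * s) :=
  ⟨s * w * s⁻¹ * w⁻¹, hw.2.2 s hs, by group⟩

section big

variable {t : X} (ht : t ∈ S) (ht2 : t * t = 1) (htV : t ∉ V)

include ht ht2 htV

theorem card_W_le (h : Loc S V) : Nat.card h.W ≤ 32 := by
  have htW : t ∉ h.W := fun hw => htV (h.W_sq_one hw ht2)
  let H : Subgroup X :=
    { carrier := {g | g ∈ h.W ∨ g * t ∈ h.W}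
      one_mem' := Or.inl (h.W).one_mem
      mul_mem' := by
        have hconj : ∀ w ∈ h.W, t * w * t⁻¹ ∈ h.W := fun w hw =>
          h.W_norm (Subgroup.le_normalizer ht) hw
        have hconj' : ∀ w ∈ h.W, t⁻¹ * w * t ∈ h.W := fun w hw => by
          have := h.W_norm (Subgroup.le_normalizer (S.inv_mem ht)) hw
          rwa [inv_inv] at this
        rintro a b (ha | ha) (hb | hb)
        · exact Or.inl ((h.W).mul_mem ha hb)
        · refine Or.inr ?_
          rw [mul_assoc]; exact (h.W).mul_mem ha hb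
        · refine Or.inr ?_
          have e : a * b * t = (a * t) * (t⁻¹ * b * t) := by group
          rw [e]
          exact (h.W).mul_mem ha (hconj' _ hb)
        · refine Or.inl ?_
          have e : a * b = (a * t) * (t⁻¹ * (b * t) * t) * (t * t)⁻¹ := by group
          rw [e, ht2, inv_one, mul_one]
          exact (h.W).mul_mem ha (hconj' _ hb)
      inv_mem' := by
        have hconj' : ∀ w ∈ h.W, t⁻¹ * w * t ∈ h.W := fun w hw => by
          have := h.W_norm (Subgroup.le_normalizer (S.inv_mem ht)) hw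
          rwa [inv_inv] at this
        rintro a (ha | ha)
        · exact Or.inl ((h.W).inv_mem ha)
        · refine Or.inr ?_
          have e : a⁻¹ * t = (t * t) * (t⁻¹ * (a * t)⁻¹ * t) := by group
          rw [e, ht2, one_mul]
          exact hconj' _ ((h.W).inv_mem ha) }
  have hHS : H ≤ S := by
    rintro a (ha | ha)
    · exact h.W_le ha
    · have := S.mul_mem (h.W_le ha) (S.inv_mem ht)
      rwa [mul_inv_cancel_right] at this
  have hH2 : ∀ a ∈ H, a * a ∈ V := by
    rintro a (ha | ha)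
    · exact ha.2.1
    · have e : a * a = (a * t) * (t⁻¹ * (a * t) * t⁻¹⁻¹ * (a * t)⁻¹) * (a * t) * (t * t)⁻¹ := by group
      rw [e, ht2, inv_one, mul_one]
      have h1 := ha.2.2 _ (S.inv_mem ht)
      have h2 := h.vc h1 (h.W_le ha)
      rw [h2, mul_assoc]
      exact V.mul_mem h1 ha.2.1
  have h1 := h.card_le hHS hH2
  rw [h.v4] at h1
  have h2 := two_mul_card_le (A := h.W) (B := H) (fun a ha => Or.inl ha) (by
    intro e
    exact htW (e ▸ (Or.inr (by show t * t ∈ h.W; rw [ht2]; exact (h.W).one_mem) : t ∈ H)))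
  omega

/-- `|W| = 16`, and the square map is a bijection `W / V → V`. -/
theorem W_main (h : Loc S V) : Nat.card h.W = 16 ∧ (∀ v ∈ V, ∃ w ∈ h.W, w * w = v) ∧
    (∀ w ∈ h.W, ∀ w' ∈ h.W, w * w = w' * w' → w⁻¹ * w' ∈ V) := by
  classical
  -- the fibres of the square map
  have : Fintype h.W := Fintype.ofFinite _
  let f : X → Finset h.W := fun v => Finset.univ.filter (fun w : h.W => (w : X) * w = v)
  have hf : ∀ v (w : h.W), w ∈ f v ↔ (w : X) * w = v := by
    intro v w
    simp only [f, Finset.mem_filter]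
    exact ⟨fun h => h.2, fun h => ⟨Finset.mem_univ _, h⟩⟩
  have hf1 : (f 1).card = 4 := by
    have : Fintype V := Fintype.ofFinite V
    rw [← h.v4, Nat.card_eq_fintype_card, ← Finset.card_univ,
      ← Finset.card_image_of_injective (f 1) Subtype.val_injective,
      ← Finset.card_image_of_injective (Finset.univ : Finset V) Subtype.val_injective]
    congr 1
    ext v
    simp only [Finset.mem_image]
    constructor
    · rintro ⟨w, hw, rfl⟩
      exact ⟨⟨w, h.W_sq_one w.2 ((hf 1 w).1 hw)⟩, Finset.mem_univ _, rfl⟩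
    · rintro ⟨v, _, rfl⟩
      exact ⟨⟨v, h.V_le_W v.2⟩, (hf 1 _).2 (h.v2 v v.2), rfl⟩
  have hfe : ∀ u ∈ V, ∀ v ∈ V, u ≠ 1 → v ≠ 1 → (f u).card ≤ (f v).card := by
    intro u hu v hv hu1 hv1
    obtain ⟨x, hx, hxu⟩ := h.tr hu hv hu1 hv1
    refine Finset.card_le_card_of_injOn (fun w => ⟨x * w * x⁻¹, h.W_norm hx w.2⟩) ?_ ?_
    · intro w hw
      rw [Finset.mem_coe, hf] at hw ⊢
      show x * w * x⁻¹ * (x * w * x⁻¹) = v
      rw [← hxu, ← hw]; group
    · intro a _ b _ hab
      have h1 := congrArg Subtype.val hab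
      exact Subtype.ext (by simpa using h1)
  obtain ⟨u, hu, v, hv, hu1, hv1, huv⟩ := h.exists_two
  have huvV := V.mul_mem hu hv
  have huv1 : u * v ≠ 1 := by
    intro e
    have := eq_inv_of_mul_eq_one_left e
    rw [h.v_inv hv] at this
    exact huv this
  have huvu : u * v ≠ u := by
    intro e; exact hv1 (by simpa using e)
  have huvv : u * v ≠ v := by
    intro e; exact hu1 (by simpa using e)
  have hsum : Fintype.card h.W = (f 1).card + ((f u).card + ((f v).card + (f (u * v)).card)) := by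
    have huniv : (Finset.univ : Finset h.W) = f 1 ∪ (f u ∪ (f v ∪ f (u * v))) := by
      ext w
      simp only [Finset.mem_univ, Finset.mem_union, hf, true_iff]
      exact h.v_cases hu hv hu1 hv1 huv w.2.2.1
    rw [← Finset.card_univ, huniv, Finset.card_union_of_disjoint, Finset.card_union_of_disjoint,
      Finset.card_union_of_disjoint]
    · rw [Finset.disjoint_left]; intro w h1 h2
      rw [hf] at h1 h2; exact huvv (h2.symm.trans h1)
    · rw [Finset.disjoint_left]; intro w h1 h2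
      rw [Finset.mem_union, hf, hf] at h2; rw [hf] at h1
      rcases h2 with h2 | h2
      · exact huv (h1.symm.trans h2)
      · exact huvu (h2.symm.trans h1)
    · rw [Finset.disjoint_left]; intro w h1 h2
      rw [Finset.mem_union, Finset.mem_union, hf, hf, hf] at h2; rw [hf] at h1
      rcases h2 with h2 | h2 | h2
      · exact hu1 (h2.symm.trans h1)
      · exact hv1 (h2.symm.trans h1)
      · exact huv1 (h2.symm.trans h1)
  have e1 := le_antisymm (hfe u hu v hv hu1 hv1) (hfe v hv u hu hv1 hu1)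
  have e2 := le_antisymm (hfe u hu _ huvV hu1 huv1) (hfe _ huvV u hu huv1 hu1)
  -- W is bigger than V
  obtain ⟨w, hwS, hwV, hw2, hwc⟩ := exists_mid' (S := S) h.isP (A := V) (M := S) le_rfl
    (fun s _ a ha => h.vn.conj_mem _ ha s) (fun s hs a ha => S.mul_mem (S.mul_mem hs ha) (S.inv_mem hs))
    ⟨t, ht, htV⟩
  have hwW : w ∈ h.W := ⟨hwS, hw2, hwc⟩
  have hpos : 0 < (f u).card := by
    have h1 : w * w ≠ 1 := fun e => hwV (h.W_sq_one hwW e)
    have h2 : 0 < (f (w * w)).card := Finset.card_pos.2 ⟨⟨w, hwW⟩, (hf _ _).2 rfl⟩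
    exact lt_of_lt_of_le h2 (hfe _ hw2 u hu h1 hu1)
  have hle := h.card_W_le ht ht2 htV
  obtain ⟨k, hk⟩ := (h.isP.to_le h.W_le).exists_card_eq
  rw [Nat.card_eq_fintype_card] at hle hk
  have hkle : k ≤ 5 := by
    by_contra hcon
    have : 2 ^ 6 ≤ 2 ^ k := Nat.pow_le_pow_right (by norm_num) (by omega)
    omega
  have hfu : (f u).card = 4 ∧ Fintype.card h.W = 16 := by
    interval_cases k <;> omega
  refine ⟨by rw [Nat.card_eq_fintype_card]; exact hfu.2, ?_, ?_⟩
  · intro z hz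
    by_cases hz1 : z = 1
    · exact ⟨1, (h.W).one_mem, by rw [hz1, one_mul]⟩
    · have h1 : 0 < (f z).card := lt_of_lt_of_le hpos (hfe u hu z hz hu1 hz1)
      obtain ⟨w, hw⟩ := Finset.card_pos.1 h1
      exact ⟨w, w.2, (hf z w).1 hw⟩
  · intro a ha b hb hab
    by_cases ha1 : a * a = 1
    · exact V.mul_mem (V.inv_mem (h.W_sq_one ha ha1)) (h.W_sq_one hb (hab ▸ ha1))
    · have h1 : (f (a * a)).card = 4 := le_antisymm ((hfe _ ha.2.1 u hu ha1 hu1).trans hfu.1.le)
        (hfu.1.symm.le.trans (hfe u hu _ ha.2.1 hu1 ha1))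
      -- the coset a V
      have : Fintype V := Fintype.ofFinite V
      let C : Finset h.W := Finset.univ.image (fun v : V => (⟨a * v, (h.W).mul_mem ha (h.V_le_W v.2)⟩ : h.W))
      have hC : C.card = 4 := by
        rw [Finset.card_image_of_injective, Finset.card_univ, ← Nat.card_eq_fintype_card, h.v4]
        intro x y hxy
        have h2 := congrArg Subtype.val hxy
        exact Subtype.ext (mul_left_cancel h2)
      have hCf : C ⊆ f (a * a) := by
        intro w hw
        obtain ⟨v, _, rfl⟩ := Finset.mem_image.1 hw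
        rw [hf]
        have h2 := h.vc v.2 (h.W_le ha)
        show a * v * (a * v) = a * a
        calc a * v * (a * v) = a * (v * a) * v := by group
          _ = a * (a * v) * v := by rw [h2]
          _ = a * a * (v * v) := by group
          _ = a * a := by rw [h.v2 v v.2, mul_one]
      have hCe : C = f (a * a) := Finset.eq_of_subset_of_card_le hCf (by rw [h1, hC])
      have hbC : (⟨b, hb⟩ : h.W) ∈ C := by rw [hCe, hf]; exact hab.symm
      obtain ⟨v, _, hv⟩ := Finset.mem_image.1 hbC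
      have h3 : a * v = b := congrArg Subtype.val hv
      rw [← h3, inv_mul_cancel_left]
      exact v.2

theorem card_W (h : Loc S V) : Nat.card h.W = 16 := (h.W_main ht ht2 htV).1

theorem W_surj (h : Loc S V) {v : X} (hv : v ∈ V) : ∃ w ∈ h.W, w * w = v := (h.W_main ht ht2 htV).2.1 v hv

theorem W_inj (h : Loc S V) {w w' : X} (hw : w ∈ h.W) (hw' : w' ∈ h.W) (e : w * w = w' * w') : w⁻¹ * w' ∈ V :=
  (h.W_main ht ht2 htV).2.2 w hw w' hw' e

/-- `W` is abelian. -/
theorem W_ab (h : Loc S V) {a b : X} (ha : a ∈ h.W) (hb : b ∈ h.W) : a * b = b * a := by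
  have hc := hb.2.2 a ha.1
  set c := a * b * a⁻¹ * b⁻¹ with hcdef
  have hab : a * b = c * (b * a) := by rw [hcdef]; group
  -- (ab)² = a² b² c
  have hsq : a * b * (a * b) = c * ((a * a) * (b * b)) := by
    have h1 : b * a = c⁻¹ * (a * b) := by rw [hab]; group
    have h2 : b * a = c * (a * b) := by rw [h1, h.v_inv hc]
    calc a * b * (a * b) = a * (b * a) * b := by group
      _ = a * (c * (a * b)) * b := by rw [h2]
      _ = (a * c) * (a * (b * b)) := by group
      _ = (c * a) * (a * (b * b)) := by rw [h.vc hc ha.1]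
      _ = c * ((a * a) * (b * b)) := by group
  by_cases haV : a ∈ V
  · exact (h.vc haV hb.1).symm
  by_cases hbV : b ∈ V
  · exact h.vc hbV ha.1
  have ha1 : a * a ≠ 1 := fun e => haV (h.W_sq_one ha e)
  have hb1 : b * b ≠ 1 := fun e => hbV (h.W_sq_one hb e)
  by_cases hab' : a * a = b * b
  · have h1 := h.W_inj ht ht2 htV ha hb hab'
    have h2 := h.vc h1 ha.1
    calc a * b = a * (a * (a⁻¹ * b)) := by group
      _ = a * ((a⁻¹ * b) * a) := by rw [h2]
      _ = b * a := by group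
  · -- c is trivial: (ab)² must be a² b²
    obtain ⟨x, hx, hxw⟩ : ∃ w ∈ h.W, w * w = (a * a) * (b * b) := h.W_surj ht ht2 htV (V.mul_mem ha.2.1 hb.2.1)
    -- the coset of x is ab V
    have hcard := h.card_W ht ht2 htV
    -- V, aV, bV, abV, xV
    by_contra hne
    have hc1 : c ≠ 1 := by
      intro e; rw [e, one_mul] at hab; exact hne hab
    have habW := (h.W).mul_mem ha hb
    have h4 := h.v_cases ha.2.1 hb.2.1 ha1 hb1 hab' habW.2.1
    -- (ab)² ∈ {1, a², b²} leads to a contradiction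
    have hcase : a * b ∈ V ∨ a⁻¹ * (a * b) ∈ V ∨ b⁻¹ * (a * b) ∈ V ∨ c = 1 := by
      rcases h4 with h5 | h5 | h5 | h5
      · exact Or.inl (h.W_sq_one habW h5)
      · exact Or.inr (Or.inl (h.W_inj ht ht2 htV ha habW h5.symm))
      · exact Or.inr (Or.inr (Or.inl (h.W_inj ht ht2 htV hb habW h5.symm)))
      · refine Or.inr (Or.inr (Or.inr ?_))
        rw [hsq] at h5
        simpa using h5
    rcases hcase with h5 | h5 | h5 | h5
    · -- ab ∈ V : then b ∈ a⁻¹ V, so a and b commute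
      have h6 := h.vc h5 ha.1
      apply hne
      have : a * (a * b) = (a * b) * a := h6
      have h7 : a * (a * b) = a * (b * a) := by rw [this]; group
      exact mul_left_cancel h7
    · rw [inv_mul_cancel_left] at h5; exact hbV h5
    · have h6 := h.vn.conj_mem _ h5 b
      have e : b * (b⁻¹ * (a * b)) * b⁻¹ = a := by group
      rw [e] at h6
      exact haV h6
    · exact hc1 h5

/-- `W / V` is irreducible for `N(S)`. -/
theorem W_le_of (h : Loc S V) {M : Subgroup X} (hM : ∀ x ∈ normalizer (S : Set X), ∀ m ∈ M, x * m * x⁻¹ ∈ M)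
    (hVM : V ≤ M) (hne : ∃ w ∈ M, w ∈ h.W ∧ w ∉ V) : h.W ≤ M := by
  obtain ⟨w, hwM, hw, hwV⟩ := hne
  intro a ha
  by_cases haV : a ∈ V
  · exact hVM haV
  have ha1 : a * a ≠ 1 := fun e => haV (h.W_sq_one ha e)
  have hw1 : w * w ≠ 1 := fun e => hwV (h.W_sq_one hw e)
  obtain ⟨x, hx, hxw⟩ := h.tr hw.2.1 ha.2.1 hw1 ha1
  have h1 := h.W_norm hx hw
  have h2 : x * w * x⁻¹ * (x * w * x⁻¹) = a * a := by rw [← hxw]; group
  have h3 := h.W_inj ht ht2 htV h1 ha h2
  have h4 := M.mul_mem (hM x hx w hwM) (hVM h3)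
  rwa [mul_inv_cancel_left] at h4

end big

end Loc

end Cfsg.Agent.H285.Fs
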