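import Cfsg.Agent.H285.FsC

/-!
# Minimal normal subgroups above `V`
-/

set_option autoImplicit false
set_option linter.unusedSectionVars false

open Subgroup
open scoped commutatorElement

namespace Cfsg.Agent.H285.Fs

variable {X : Type*} [Group X] [Finite X] {S V : Subgroup X}

namespace Loc

theorem cc_left (h : Loc S V) {a b c : X} (ha : a ∈ S) (hbc : ⁅b, c⁆ ∈ V) : ⁅a * b, c⁆ = ⁅b, c⁆ * ⁅a, c⁆ := by
  have h1 := h.vc hbc ha
  calc ⁅a * b, c⁆ = (a * ⁅b, c⁆) * (c * a⁻¹ * c⁻¹) := by simp only [commutatorElement_def]; group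
    _ = (⁅b, c⁆ * a) * (c * a⁻¹ * c⁻¹) := by rw [h1]
    _ = ⁅b, c⁆ * ⁅a, c⁆ := by simp only [commutatorElement_def]; group

theorem cc_right (h : Loc S V) {a b c : X} (hb : b ∈ S) (hac : ⁅a, c⁆ ∈ V) : ⁅a, b * c⁆ = ⁅a, b⁆ * ⁅a, c⁆ := by
  have h1 := h.vc hac hb
  calc ⁅a, b * c⁆ = ⁅a, b⁆ * (b * ⁅a, c⁆ * b⁻¹) := by simp only [commutatorElement_def]; group
    _ = ⁅a, b⁆ * ⁅a, c⁆ := by rw [h1, mul_inv_cancel_right]

theorem cc_symm (h : Loc S V) {a b : X} (hab : ⁅a, b⁆ ∈ V) : ⁅b, a⁆ = ⁅a, b⁆ := by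
  rw [← commutatorElement_inv, h.v_inv hab]

theorem cc_symm_mem (h : Loc S V) {a b : X} (hab : ⁅a, b⁆ ∈ V) : ⁅b, a⁆ ∈ V := by
  rw [h.cc_symm hab]; exact hab

theorem cc_one {a b : X} : ⁅a, b⁆ = 1 ↔ a * b = b * a := commutatorElement_eq_one_iff_mul_comm

/-- the involutions of an abelian `S`-invariant subgroup containing `V` are in `V` -/
theorem omega (h : Loc S V) {A : Subgroup X} (hA : A ≤ S) (hn : ∀ s ∈ S, ∀ a ∈ A, s * a * s⁻¹ ∈ A)
    (hc : ∀ a ∈ A, ∀ b ∈ A, a * b = b * a) (hVA : V ≤ A) {a : X} (ha : a ∈ A) (ha2 : a * a = 1) : a ∈ V := by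
  let E : Subgroup X :=
    { carrier := {g | g ∈ A ∧ g * g = 1}
      one_mem' := ⟨A.one_mem, one_mul 1⟩
      mul_mem' := by
        rintro x y ⟨hx, hx2⟩ ⟨hy, hy2⟩
        refine ⟨A.mul_mem hx hy, ?_⟩
        calc x * y * (x * y) = x * (y * x) * y := by group
          _ = x * (x * y) * y := by rw [hc x hx y hy]
          _ = (x * x) * (y * y) := by group
          _ = 1 := by rw [hx2, hy2, one_mul]
      inv_mem' := by
        rintro x ⟨hx, hx2⟩
        refine ⟨A.inv_mem hx, ?_⟩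
        rw [← mul_inv_rev, hx2, inv_one] }
  have h1 := h.noE E (fun g hg => hA hg.1) (fun g hg => hg.2) (by
    rintro s hs g ⟨hg, hg2⟩
    refine ⟨hn s hs g hg, ?_⟩
    calc s * g * s⁻¹ * (s * g * s⁻¹) = s * (g * g) * s⁻¹ := by group
      _ = 1 := by rw [hg2]; group)
  have h2 : V = E := Subgroup.eq_of_le_of_card_ge (fun v hv => ⟨hVA hv, h.v2 v hv⟩) (by rw [h.v4]; exact h1)
  rw [h2]
  exact ⟨ha, ha2⟩

/-- The situation of a minimal normal subgroup `N / V` of `X / V`. -/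
structure MinN (h : Loc S V) (N : Subgroup X) : Prop where
  n : N.Normal
  vN : V ≤ N
  ne : V ≠ N
  NS : N ≤ S
  min : ∀ M : Subgroup X, M.Normal → V ≤ M → M ≤ N → M = V ∨ M = N
  sq : ∀ m ∈ N, m * m ∈ V
  cm : ∀ m ∈ N, ∀ n ∈ N, ⁅n, m⁆ ∈ V

section minN

variable {N : Subgroup X} {t : X} (h : Loc S V) (hN : MinN h N) (ht : t ∈ S) (ht2 : t * t = 1) (htV : t ∉ V)

include hN ht ht2 htV

theorem W_le_N : h.W ≤ N := by
  refine h.W_le_of ht ht2 htV (fun x _ m hm => hN.n.conj_mem m hm x) hN.vN ?_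
  have hex : ∃ m ∈ N, m ∉ V := by
    by_contra hcon
    push Not at hcon
    exact hN.ne (le_antisymm hN.vN hcon)
  obtain ⟨m, hm, hmV, hm2, hmc⟩ := exists_mid' h.isP hN.NS (fun s _ a ha => h.vn.conj_mem _ ha s)
    (fun s _ a ha => hN.n.conj_mem _ ha s) hex
  exact ⟨m, hm, ⟨hN.NS hm, hm2, hmc⟩, hmV⟩

theorem eq_W_of_ab (hab : ∀ a ∈ N, ∀ b ∈ N, a * b = b * a) : N = h.W := by
  refine (Subgroup.eq_of_le_of_card_ge (h.W_le_N hN ht ht2 htV) ?_).symm
  rw [h.card_W ht ht2 htV]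
  have h1 := Cfsg.Agent.Classification.FourGenMain.card_le_fiber (X := N) (K := V) (Y := V)
    (fun x => ⟨(x : X) * x, hN.sq x x.2⟩) (by
      intro x y hxy
      have h2 : (x : X) * x = y * y := congrArg Subtype.val hxy
      refine h.omega hN.NS (fun s _ a ha => hN.n.conj_mem _ ha s) hab hN.vN
        (N.mul_mem (N.inv_mem x.2) y.2) ?_
      have h3 := hab _ (N.inv_mem x.2) _ y.2
      calc (x : X)⁻¹ * y * ((x : X)⁻¹ * y) = (x : X)⁻¹ * (y * (x : X)⁻¹) * y := by group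
        _ = (x : X)⁻¹ * ((x : X)⁻¹ * y) * y := by rw [h3]
        _ = ((x : X) * x)⁻¹ * (y * y) := by group
        _ = 1 := by rw [h2, inv_mul_cancel])
  rw [h.v4] at h1
  exact h1

/-- the centre of `N` -/
theorem center_N (hnab : ∃ a ∈ N, ∃ b ∈ N, a * b ≠ b * a) {z : X} (hz : z ∈ N)
    (hzc : ∀ n ∈ N, n * z = z * n) : z ∈ V := by
  let Z : Subgroup X := N ⊓ centralizer (N : Set X)
  have hZn : Z.Normal := by
    have := hN.n
    exact inferInstance
  have hVZ : V ≤ Z := fun v hv => ⟨hN.vN hv, mem_centralizer_iff.2 (fun n hn => h.vc hv (hN.NS hn))⟩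
  rcases hN.min Z hZn hVZ inf_le_left with h1 | h1
  · rw [← h1]; exact ⟨hz, mem_centralizer_iff.2 hzc⟩
  · obtain ⟨a, ha, b, hb, hab⟩ := hnab
    rw [← h1] at hb
    exact absurd (mem_centralizer_iff.1 hb.2 a ha) hab

theorem card_N_le : Nat.card N ≤ 64 := by
  have h1 := h.card_le hN.NS hN.sq
  rwa [h.v4] at h1

omit ht ht2 htV in
/-- The radical modulo `⟨v⟩`. -/
def R (v : X) : Subgroup X where
  carrier := {n | n ∈ N ∧ ∀ m ∈ N, ⁅m, n⁆ = 1 ∨ ⁅m, n⁆ = v}
  one_mem' := ⟨N.one_mem, fun m _ => Or.inl (commutatorElement_one_right m)⟩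
  mul_mem' := by
    rintro a b ⟨ha, ha1⟩ ⟨hb, hb1⟩
    refine ⟨N.mul_mem ha hb, fun m hm => ?_⟩
    have h1 := h.cc_right (a := m) (hN.NS ha) (hN.cm b hb m hm)
    rw [h1]
    have hv2 : ∀ w : X, w ∈ V → w * w = 1 := h.v2
    rcases ha1 m hm with h2 | h2 <;> rcases hb1 m hm with h3 | h3
    · left; rw [h2, h3, one_mul]
    · right; rw [h2, h3, one_mul]
    · right; rw [h2, h3, mul_one]
    · left; rw [h2, h3]; exact hv2 v (h2 ▸ hN.cm a ha m hm)
  inv_mem' := by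
    rintro a ⟨ha, ha1⟩
    refine ⟨N.inv_mem ha, fun m hm => ?_⟩
    have h1 := h.cc_right (a := m) (hN.NS ha) (hN.cm a⁻¹ (N.inv_mem ha) m hm)
    rw [mul_inv_cancel, commutatorElement_one_right] at h1
    have h2 : ⁅m, a⁻¹⁆ = ⁅m, a⁆ := by
      rw [← h.v_inv (hN.cm a ha m hm)]
      exact (inv_eq_of_mul_eq_one_right h1.symm).symm
    rw [h2]; exact ha1 m hm

omit ht ht2 htV in
theorem mem_R {v n : X} : n ∈ R h hN v ↔ n ∈ N ∧ ∀ m ∈ N, ⁅m, n⁆ = 1 ∨ ⁅m, n⁆ = v := Iff.rfl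

omit ht ht2 htV in
theorem V_le_R {v : X} : V ≤ R h hN v := fun w hw =>
  ⟨hN.vN hw, fun m hm => Or.inl (cc_one.2 (h.vc hw (hN.NS hm)))⟩

omit ht ht2 htV in
theorem R_conj {v n : X} (hn : n ∈ R h hN v) (x : X) : x * n * x⁻¹ ∈ R h hN (x * v * x⁻¹) := by
  refine ⟨hN.n.conj_mem _ hn.1 x, fun m hm => ?_⟩
  have hm' : x⁻¹ * m * x ∈ N := by
    have := hN.n.conj_mem _ hm x⁻¹
    rwa [inv_inv] at this
  have e : ⁅m, x * n * x⁻¹⁆ = x * ⁅x⁻¹ * m * x, n⁆ * x⁻¹ := by simp only [commutatorElement_def]; group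
  rw [e]
  rcases hn.2 _ hm' with h1 | h1
  · left; rw [h1]; group
  · right; rw [h1]

omit ht ht2 htV in
theorem R_comm {u v a b : X} (huv : u ≠ v) (ha : a ∈ R h hN u) (hb : b ∈ R h hN v) : a * b = b * a := by
  have h1 := hb.2 a ha.1
  have h2 := ha.2 b hb.1
  rw [h.cc_symm (hN.cm b hb.1 a ha.1)] at h2
  rw [← cc_one]
  rcases h1 with h1 | h1
  · exact h1
  · rcases h2 with h2 | h2
    · exact h2
    · exact absurd (h2.symm.trans h1) huv

/-- Case A is impossible. -/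
theorem caseA (hnab : ∃ a ∈ N, ∃ b ∈ N, a * b ≠ b * a) {v r : X} (hv : v ∈ V) (hv1 : v ≠ 1)
    (hr : r ∈ R h hN v) (hrV : r ∉ V) : False := by
  -- all the radicals are non-trivial
  have hall : ∀ u ∈ V, u ≠ 1 → ∃ r ∈ R h hN u, r ∉ V := by
    intro u hu hu1
    obtain ⟨x, _, hx⟩ := h.tr hv hu hv1 hu1
    refine ⟨x * r * x⁻¹, hx ▸ R_conj h hN hr x, fun e => hrV ?_⟩
    have := h.vn.conj_mem _ e x⁻¹
    simpa [mul_assoc] using this
  let S0 : Set X := {n | ∃ u ∈ V, u ≠ 1 ∧ n ∈ R h hN u}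
  have hS0 : ∀ n ∈ S0, ∀ x : X, x * n * x⁻¹ ∈ S0 := by
    rintro n ⟨u, hu, hu1, hn⟩ x
    refine ⟨x * u * x⁻¹, h.vn.conj_mem _ hu x, fun e => hu1 ?_, R_conj h hN hn x⟩
    have := congrArg (fun z => x⁻¹ * z * x) e
    simpa [mul_assoc] using this
  have hTle : ∀ K : Subgroup X, S0 ⊆ K → normalClosure S0 ≤ K := by
    intro K hK
    refine (closure_le K).2 ?_
    intro y hy
    obtain ⟨n, hn, hny⟩ := Group.mem_conjugatesOfSet_iff.1 hy
    obtain ⟨x, hx⟩ := isConj_iff.1 hny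
    rw [← hx]
    exact hK (hS0 n hn x)
  have hTN : normalClosure S0 = N := by
    have h1 : normalClosure S0 ≤ N := hTle N (by rintro n ⟨u, _, _, hn⟩; exact hn.1)
    have h2 : V ≤ normalClosure S0 := fun w hw =>
      subset_normalClosure ⟨v, hv, hv1, V_le_R h hN hw⟩
    rcases hN.min _ inferInstance h2 h1 with h3 | h3
    · exfalso
      have : r ∈ normalClosure S0 := subset_normalClosure ⟨v, hv, hv1, hr⟩
      rw [h3] at this
      exact hrV this
    · exact h3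
  -- elements of N commuting with all radicals are in V
  have hcen : ∀ z ∈ N, (∀ u ∈ V, u ≠ 1 → ∀ n ∈ R h hN u, n * z = z * n) → z ∈ V := by
    intro z hz hzc
    refine h.center_N hN ht ht2 htV hnab hz (fun n hn => ?_)
    have h1 : normalClosure S0 ≤ centralizer ({z} : Set X) := hTle _ (by
      rintro n ⟨u, hu, hu1, hn⟩
      rw [SetLike.mem_coe, mem_centralizer_singleton_iff]
      exact (hzc u hu hu1 n hn))
    rw [hTN] at h1
    exact mem_centralizer_singleton_iff.1 (h1 hn)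
  -- the radicals are not abelian, so they have order ≥ 16
  have hcard : ∀ u ∈ V, u ≠ 1 → 16 ≤ Nat.card (R h hN u) := by
    intro u hu hu1
    obtain ⟨r, hr, hrV⟩ := hall u hu hu1
    -- r does not commute with some element of R u
    have hex : ∃ s ∈ R h hN u, s * r ≠ r * s := by
      by_contra hcon
      push Not at hcon
      refine hrV (hcen r hr.1 (fun w hw hw1 n hn => ?_))
      by_cases hwu : w = u
      · rw [hwu] at hn; exact hcon n hn
      · exact R_comm h hN hwu hn hr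
    obtain ⟨s, hs, hsr⟩ := hex
    let A : Subgroup X := R h hN u ⊓ centralizer ({r} : Set X)
    have hVA : V ≤ A := fun w hw => ⟨V_le_R h hN hw, mem_centralizer_singleton_iff.2 (h.vc hw (hN.NS hr.1)).symm⟩
    have h1 := two_mul_card_le hVA (by
      intro e
      exact hrV (e ▸ (⟨hr, mem_centralizer_singleton_iff.2 rfl⟩ : r ∈ A)))
    have h2 := two_mul_card_le (A := A) (B := R h hN u) inf_le_left (by
      intro e
      rw [← e] at hs
      exact hsr (mem_centralizer_singleton_iff.1 hs.2))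
    rw [h.v4] at h1
    omega
  obtain ⟨u, hu, w, hw, hu1, hw1, huw⟩ := h.exists_two
  have huwV := V.mul_mem hu hw
  have huw1 : u * w ≠ 1 := by
    intro e
    have := eq_inv_of_mul_eq_one_left e
    rw [h.v_inv hw] at this
    exact huw this
  have huwu : u * w ≠ u := by
    intro e; exact hw1 (by simpa using e)
  have huww : u * w ≠ w := by
    intro e; exact hu1 (by simpa using e)
  obtain ⟨r3, hr3, hr3V⟩ := hall _ huwV huw1
  let D : Subgroup X := N ⊓ centralizer ({r3} : Set X)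
  have hDu : R h hN u ≤ D := fun a ha => ⟨ha.1, mem_centralizer_singleton_iff.2 (R_comm h hN huwu.symm ha hr3)⟩
  have hDw : R h hN w ≤ D := fun a ha => ⟨ha.1, mem_centralizer_singleton_iff.2 (R_comm h hN huww.symm ha hr3)⟩
  have h1 := Cfsg.Agent.Classification.FourGenMain.card_le_fiber (X := R h hN u) (K := V)
    (Y := D ⧸ (R h hN w).subgroupOf D) (fun x => QuotientGroup.mk ⟨(x : X), hDu x.2⟩) (by
      intro x y hxy
      have h2 := QuotientGroup.eq.1 hxy
      have h3 : (x : X)⁻¹ * y ∈ R h hN w := h2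
      have h4 : (x : X)⁻¹ * y ∈ R h hN u := (R h hN u).mul_mem ((R h hN u).inv_mem x.2) y.2
      refine h.center_N hN ht ht2 htV hnab h3.1 (fun n hn => ?_)
      rw [← cc_one]
      rcases h3.2 n hn with h5 | h5
      · exact h5
      · rcases h4.2 n hn with h6 | h6
        · exact h6
        · exact absurd (h6.symm.trans h5) huw)
  have h5 : Nat.card (R h hN w) * Nat.card (D ⧸ (R h hN w).subgroupOf D) = Nat.card D := by
    rw [← Nat.card_congr (Subgroup.subgroupOfEquivOfLe hDw).toEquiv, mul_comm]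
    exact (Subgroup.card_eq_card_quotient_mul_card_subgroup _).symm
  have h6 := hcard u hu hu1
  have h7 := hcard w hw hw1
  rw [h.v4] at h1
  have h8 : 4 ≤ Nat.card (D ⧸ (R h hN w).subgroupOf D) := by omega
  have h9 : 64 ≤ Nat.card D := by
    rw [← h5]
    calc 64 = 16 * 4 := by norm_num
      _ ≤ _ := Nat.mul_le_mul h7 h8
  have hDN : D = N := Subgroup.eq_of_le_of_card_ge inf_le_left
    ((h.card_N_le hN ht ht2 htV).trans h9)
  refine hr3V (h.center_N hN ht ht2 htV hnab hr3.1 (fun n hn => ?_))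
  rw [← hDN] at hn
  exact mem_centralizer_singleton_iff.1 hn.2

end minN

end Loc

end Cfsg.Agent.H285.Fs
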