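import Cfsg.Agent.H285.FsD

/-!
# Minimal normal subgroups above `V` are equal to `W`
-/

set_option autoImplicit false
set_option linter.unusedSectionVars false

open Subgroup
open scoped commutatorElement

namespace Cfsg.Agent.H285.Fs

variable {X : Type*} [Group X] [Finite X] {S V : Subgroup X}

namespace Loc

section minN

variable {N : Subgroup X} {t : X} (h : Loc S V) (hN : MinN h N) (ht : t ∈ S) (ht2 : t * t = 1) (htV : t ∉ V)

include hN ht ht2 htV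

theorem exists_w : ∃ w ∈ h.W, w ∉ V := by
  by_contra hcon
  push Not at hcon
  have h1 : h.W ≤ V := hcon
  have h2 := Subgroup.card_le_of_le h1
  rw [h.v4, h.card_W ht ht2 htV] at h2
  omega

/-- The commutator map of a non-central element is onto `V`. -/
theorem surj (hnab : ∃ a ∈ N, ∃ b ∈ N, a * b ≠ b * a) {r : X} (hr : r ∈ N) (hrV : r ∉ V) {v : X} (hv : v ∈ V) :
    ∃ m ∈ N, ⁅m, r⁆ = v := by
  have hB : ∀ u ∈ V, u ≠ 1 → ∃ m ∈ N, ⁅m, r⁆ ≠ 1 ∧ ⁅m, r⁆ ≠ u := by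
    intro u hu hu1
    by_contra hcon
    push Not at hcon
    exact caseA h hN ht ht2 htV hnab (v := u) (r := r) hu hu1
      ⟨hr, fun m hm => or_iff_not_imp_left.2 (hcon m hm)⟩ hrV
  obtain ⟨u, hu, w, hw, hu1, hw1, huw⟩ := h.exists_two
  obtain ⟨m1, hm1, h1, _⟩ := hB u hu hu1
  obtain ⟨m2, hm2, h2, h3⟩ := hB _ (hN.cm r hr m1 hm1) h1
  rcases h.v_cases (hN.cm r hr m1 hm1) (hN.cm r hr m2 hm2) h1 h2 (Ne.symm h3) hv with h4 | h4 | h4 | h4
  · exact ⟨1, N.one_mem, by rw [h4]; exact commutatorElement_one_left r⟩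
  · exact ⟨m1, hm1, h4.symm⟩
  · exact ⟨m2, hm2, h4.symm⟩
  · refine ⟨m2 * m1, N.mul_mem hm2 hm1, ?_⟩
    rw [h4, h.cc_left (hN.NS hm2) (hN.cm r hr m1 hm1)]

theorem card_N (hnab : ∃ a ∈ N, ∃ b ∈ N, a * b ≠ b * a) :
    Nat.card N = 64 ∧ ∀ w ∈ h.W, w ∉ V → ∀ n ∈ N, n * w = w * n → n ∈ h.W := by
  have hWN := h.W_le_N hN ht ht2 htV
  have key : ∀ w ∈ h.W, w ∉ V → Nat.card N = 64 ∧ h.W = N ⊓ centralizer ({w} : Set X) := by
    intro w hw hwV
    have hwN := hWN hw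
    let φ : N →* V :=
      { toFun := fun m => ⟨⁅(m : X), w⁆, hN.cm w hwN m m.2⟩
        map_one' := Subtype.ext (commutatorElement_one_left w)
        map_mul' := fun a b => Subtype.ext (by
          show ⁅(a : X) * b, w⁆ = ⁅(a : X), w⁆ * ⁅(b : X), w⁆
          rw [h.cc_left (hN.NS a.2) (hN.cm w hwN b b.2), h.v_comm (hN.cm w hwN b b.2) (hN.cm w hwN a a.2)]) }
    have hsur : Function.Surjective φ := by
      rintro ⟨v, hv⟩
      obtain ⟨m, hm, hmv⟩ := h.surj hN ht ht2 htV hnab hwN hwV hv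
      exact ⟨⟨m, hm⟩, Subtype.ext hmv⟩
    have h1 : Nat.card N = 4 * Nat.card φ.ker := by
      have h2 := φ.ker.index_mul_card
      rw [Subgroup.index_ker, MonoidHom.range_eq_top.2 hsur, Subgroup.card_top, h.v4] at h2
      exact h2.symm
    have h3 : φ.ker.map N.subtype = N ⊓ centralizer ({w} : Set X) := by
      ext n
      constructor
      · rintro ⟨m, hm, rfl⟩
        refine ⟨m.2, mem_centralizer_singleton_iff.2 ?_⟩
        exact cc_one.1 (congrArg Subtype.val hm)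
      · rintro ⟨hn, hnc⟩
        exact ⟨⟨n, hn⟩, Subtype.ext (cc_one.2 (mem_centralizer_singleton_iff.1 hnc)), rfl⟩
    have h4 : Nat.card φ.ker = Nat.card (N ⊓ centralizer ({w} : Set X) : Subgroup X) := by
      rw [← h3]
      exact Nat.card_congr (φ.ker.equivMapOfInjective _ N.subtype_injective).toEquiv
    have h5 : h.W ≤ N ⊓ centralizer ({w} : Set X) := fun a ha =>
      ⟨hWN ha, mem_centralizer_singleton_iff.2 (h.W_ab ht ht2 htV ha hw)⟩
    have h6 := Subgroup.card_le_of_le h5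
    rw [h.card_W ht ht2 htV, ← h4] at h6
    have h7 := h.card_N_le hN ht ht2 htV
    refine ⟨by omega, Subgroup.eq_of_le_of_card_ge h5 ?_⟩
    rw [h.card_W ht ht2 htV, ← h4]
    omega
  obtain ⟨w, hw, hwV⟩ := h.exists_w hN ht ht2 htV
  refine ⟨(key w hw hwV).1, fun w hw hwV n hn hnw => ?_⟩
  rw [(key w hw hwV).2]
  exact ⟨hn, mem_centralizer_singleton_iff.2 hnw⟩

/-- `[N, S] ≤ W`. -/
theorem cc_mem_W (hnab : ∃ a ∈ N, ∃ b ∈ N, a * b ≠ b * a) {s n : X} (hs : s ∈ S) (hn : n ∈ N) : ⁅s, n⁆ ∈ h.W := by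
  obtain ⟨w, hw, hwV⟩ := h.exists_w hN ht ht2 htV
  have hwN := h.W_le_N hN ht ht2 htV hw
  have hsn : s * n * s⁻¹ ∈ N := hN.n.conj_mem n hn s
  refine (h.card_N hN ht ht2 htV hnab).2 w hw hwV _ ?_ ?_
  · have e : ⁅s, n⁆ = (s * n * s⁻¹) * n⁻¹ := rfl
    rw [e]; exact N.mul_mem hsn (N.inv_mem hn)
  · -- c = [n, w], s⁻¹ w s = d w
    have hc := hN.cm w hwN n hn
    have hd : s⁻¹ * w * s⁻¹⁻¹ * w⁻¹ ∈ V := hw.2.2 _ (S.inv_mem hs)
    have h1 : ⁅s * n * s⁻¹, w⁆ = ⁅n, w⁆ := by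
      have h2 : ⁅n, (s⁻¹ * w * s⁻¹⁻¹ * w⁻¹) * w⁆ = ⁅n, w⁆ := by
        rw [h.cc_right (h.vS hd) hc, cc_one.2 (h.vc hd (hN.NS hn)), one_mul]
      have h3 : ⁅s * n * s⁻¹, w⁆ = s * ⁅n, (s⁻¹ * w * s⁻¹⁻¹ * w⁻¹) * w⁆ * s⁻¹ := by
        simp only [commutatorElement_def]; group
      rw [h3, h2, h.vc hc hs, mul_inv_cancel_right]
    have h4 : ⁅(s * n * s⁻¹) * n⁻¹, w⁆ = 1 := by
      have h5 := hN.cm w hwN _ (N.inv_mem hn)
      rw [h.cc_left (hN.NS hsn) h5, h1]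
      have h6 := h.cc_left (hN.NS (N.inv_mem hn)) hc (c := w)
      rw [inv_mul_cancel, commutatorElement_one_left] at h6
      rw [h.v_comm h5 hc]; exact h6.symm
    exact cc_one.1 h4

/-- `δ² = [n, δ]` for `δ = [s, n]`. -/
theorem cc_sq (hnab : ∃ a ∈ N, ∃ b ∈ N, a * b ≠ b * a) {s n : X} (hs : s ∈ S) (hn : n ∈ N) :
    ⁅s, n⁆ * ⁅s, n⁆ = ⁅n, ⁅s, n⁆⁆ := by
  have hW := h.cc_mem_W hN ht ht2 htV hnab hs hn
  have hWN := h.W_le_N hN ht ht2 htV hW
  set δ := ⁅s, n⁆ with hδ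
  have h1 : s * n * s⁻¹ = δ * n := by rw [hδ, commutatorElement_def]; group
  have h2 : (δ * n) * (δ * n) = n * n := by
    rw [← h1]
    calc s * n * s⁻¹ * (s * n * s⁻¹) = s * (n * n) * s⁻¹ := by group
      _ = n * n := by rw [h.vc (hN.sq n hn) hs, mul_inv_cancel_right]
  have hc := hN.cm δ hWN n hn
  have h3 : n * δ = ⁅n, δ⁆ * (δ * n) := by rw [commutatorElement_def]; group
  have h4 : (δ * n) * (δ * n) = ⁅n, δ⁆ * (δ * δ) * (n * n) := by
    calc (δ * n) * (δ * n) = δ * (n * δ) * n := by group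
      _ = δ * (⁅n, δ⁆ * (δ * n)) * n := by rw [h3]
      _ = (δ * ⁅n, δ⁆) * (δ * (n * n)) := by group
      _ = (⁅n, δ⁆ * δ) * (δ * (n * n)) := by rw [h.vc hc (h.W_le hW)]
      _ = _ := by group
  rw [h4] at h2
  have h5 : ⁅n, δ⁆ * (δ * δ) = 1 := by
    have := mul_right_cancel (h2.trans (one_mul (n * n)).symm)
    exact this
  have h6 := eq_inv_of_mul_eq_one_right h5
  rw [h6, h.v_inv hc]

theorem cc_cross (hnab : ∃ a ∈ N, ∃ b ∈ N, a * b ≠ b * a) {s c d : X} (hs : s ∈ S) (hc : c ∈ N) (hd : d ∈ N) :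
    ⁅c, ⁅s, d⁆⁆ = ⁅d, ⁅s, c⁆⁆ := by
  have hδ := h.cc_mem_W hN ht ht2 htV hnab hs hc
  have hε := h.cc_mem_W hN ht ht2 htV hnab hs hd
  have h1 := h.cc_sq hN ht ht2 htV hnab hs hc
  have h2 := h.cc_sq hN ht ht2 htV hnab hs hd
  have h3 := h.cc_sq hN ht ht2 htV hnab hs (N.mul_mem hc hd)
  set δ := ⁅s, c⁆ with hδd
  set ε := ⁅s, d⁆ with hεd
  have hWN := h.W_le_N hN ht ht2 htV
  have hcε := hN.cm ε (hWN hε) c hc
  have hcδ := hN.cm δ (hWN hδ) c hc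
  have hdε := hN.cm ε (hWN hε) d hd
  have hdδ := hN.cm δ (hWN hδ) d hd
  have e1 : ⁅s, c * d⁆ = δ * (⁅c, ε⁆ * ε) := by
    rw [hδd, hεd]; simp only [commutatorElement_def]; group
  have hab := h.W_ab ht ht2 htV hδ hε
  have e2 : δ * (⁅c, ε⁆ * ε) * (δ * (⁅c, ε⁆ * ε)) = (δ * δ) * (ε * ε) := by
    have h5 := h.vc hcε (h.W_le hδ)
    have h6 := h.vc hcε (h.W_le hε)
    calc δ * (⁅c, ε⁆ * ε) * (δ * (⁅c, ε⁆ * ε)) = (δ * ⁅c, ε⁆) * ε * δ * (⁅c, ε⁆ * ε) := by group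
      _ = (⁅c, ε⁆ * δ) * ε * δ * (ε * ⁅c, ε⁆) := by rw [h5, h6]
      _ = ⁅c, ε⁆ * δ * (ε * δ) * ε * ⁅c, ε⁆ := by group
      _ = ⁅c, ε⁆ * δ * (δ * ε) * ε * ⁅c, ε⁆ := by rw [hab]
      _ = ⁅c, ε⁆ * ((δ * δ) * (ε * ε)) * ⁅c, ε⁆ := by group
      _ = ((δ * δ) * (ε * ε)) * ⁅c, ε⁆ * ⁅c, ε⁆ := by rw [h.v_comm hcε (V.mul_mem hδ.2.1 hε.2.1)]
      _ = (δ * δ) * (ε * ε) * (⁅c, ε⁆ * ⁅c, ε⁆) := by group
      _ = (δ * δ) * (ε * ε) := by rw [h.v2 _ hcε, mul_one]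
  rw [e1, e2] at h3
  have hsS := hN.NS hc
  have e3 : ⁅c * d, δ * (⁅c, ε⁆ * ε)⁆ = (⁅d, δ⁆ * ⁅d, ε⁆) * (⁅c, δ⁆ * ⁅c, ε⁆) := by
    have hgen : ∀ m ∈ N, ⁅m, δ * (⁅c, ε⁆ * ε)⁆ = ⁅m, δ⁆ * ⁅m, ε⁆ := by
      intro m hm
      have hmε := hN.cm ε (hWN hε) m hm
      have h7 : ⁅m, ⁅c, ε⁆ * ε⁆ = ⁅m, ε⁆ := by
        rw [h.cc_right (h.vS hcε) hmε, cc_one.2 (h.vc hcε (hN.NS hm)), one_mul]
      rw [h.cc_right (h.W_le hδ) (by rw [h7]; exact hmε), h7]
    have hmem : ⁅d, δ * (⁅c, ε⁆ * ε)⁆ ∈ V := by rw [hgen d hd]; exact V.mul_mem hdδ hdε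
    rw [h.cc_left hsS hmem, hgen d hd, hgen c hc]
  rw [e3, h1, h2] at h3
  -- [c,δ][d,ε] = [d,δ][d,ε][c,δ][c,ε]
  have h8 : ⁅d, δ⁆ * ⁅c, ε⁆ = 1 := by
    have e4 : ⁅d, δ⁆ * ⁅d, ε⁆ * (⁅c, δ⁆ * ⁅c, ε⁆) = (⁅c, δ⁆ * ⁅d, ε⁆) * (⁅d, δ⁆ * ⁅c, ε⁆) := by
      rw [h.v_comm hdδ hdε, h.v_comm hcδ hdε]
      calc ⁅d, ε⁆ * ⁅d, δ⁆ * (⁅c, δ⁆ * ⁅c, ε⁆) = ⁅d, ε⁆ * (⁅d, δ⁆ * ⁅c, δ⁆) * ⁅c, ε⁆ := by group
        _ = ⁅d, ε⁆ * (⁅c, δ⁆ * ⁅d, δ⁆) * ⁅c, ε⁆ := by rw [h.v_comm hdδ hcδ]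
        _ = _ := by group
    rw [e4] at h3
    exact (mul_eq_left.1 h3.symm)
  have h9 := eq_inv_of_mul_eq_one_right h8
  rw [h9, h.v_inv hdδ]

theorem stab_or (hnab : ∃ a ∈ N, ∃ b ∈ N, a * b ≠ b * a) {s c : X} (hs : s ∈ S) (hc : c ∈ N) (hcW : c ∉ h.W)
    (hsc : ⁅s, c⁆ ∈ V) {d : X} (hd : d ∈ N) : ⁅s, d⁆ ∈ V := by
  by_contra hcon
  have h1 := h.cc_cross hN ht ht2 htV hnab hs hc hd
  rw [cc_one.2 (h.vc hsc (hN.NS hd))] at h1
  exact hcW ((h.card_N hN ht ht2 htV hnab).2 _ (h.cc_mem_W hN ht ht2 htV hnab hs hd) hcon c hc (cc_one.1 h1))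

/-- Minimal normal subgroups above `V` are equal to `W`. -/
theorem eq_W : N = h.W := by
  by_cases hab : ∀ a ∈ N, ∀ b ∈ N, a * b = b * a
  · exact h.eq_W_of_ab hN ht ht2 htV hab
  push Not at hab
  exfalso
  have hnab := hab
  obtain ⟨hcard, hCW⟩ := h.card_N hN ht ht2 htV hnab
  have hWN := h.W_le_N hN ht ht2 htV
  have hWcard := h.card_W ht ht2 htV
  -- elements c, d of N, independent modulo W
  obtain ⟨c, hc, hcW⟩ : ∃ c ∈ N, c ∉ h.W := by
    by_contra hcon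
    push Not at hcon
    have := Subgroup.card_le_of_le (show N ≤ h.W from hcon)
    omega
  obtain ⟨d, hd, hdW, hcd⟩ : ∃ d ∈ N, d ∉ h.W ∧ c⁻¹ * d ∉ h.W := by
    by_contra hcon
    push Not at hcon
    have h1 := Cfsg.Agent.Classification.FourGenMain.card_le_fiber (X := N) (K := h.W) (Y := Bool)
      (fun x => @decide ((x : X) ∈ h.W) (Classical.dec _)) (by
        intro x y hxy
        have h2 : ((x : X) ∈ h.W) ↔ ((y : X) ∈ h.W) := by
          simpa using hxy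
        by_cases hx : (x : X) ∈ h.W
        · exact (h.W).mul_mem ((h.W).inv_mem hx) (h2.1 hx)
        · have hy : (y : X) ∉ h.W := fun e => hx (h2.2 e)
          have h3 := hcon x x.2 hx
          have h4 := hcon y y.2 hy
          have h5 := (h.W).mul_mem ((h.W).inv_mem h3) h4
          have e : (c⁻¹ * (x : X))⁻¹ * (c⁻¹ * y) = (x : X)⁻¹ * y := by group
          rwa [e] at h5)
    rw [Nat.card_eq_fintype_card (α := Bool), Fintype.card_bool] at h1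
    omega
  -- the normal subgroup centralising N / V
  let B : Subgroup X :=
    { carrier := {g | ∀ n ∈ N, ⁅g, n⁆ ∈ V}
      one_mem' := fun n _ => by rw [commutatorElement_one_left]; exact V.one_mem
      mul_mem' := by
        intro a b ha hb n hn
        have e : ⁅a * b, n⁆ = (a * ⁅b, n⁆ * a⁻¹) * ⁅a, n⁆ := by simp only [commutatorElement_def]; group
        rw [e]
        exact V.mul_mem (h.vn.conj_mem _ (hb n hn) a) (ha n hn)
      inv_mem' := by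
        intro a ha n hn
        have e : ⁅a⁻¹, n⁆ = a⁻¹ * (⁅a, n⁆)⁻¹ * a⁻¹⁻¹ := by simp only [commutatorElement_def]; group
        rw [e]
        exact h.vn.conj_mem _ (V.inv_mem (ha n hn)) _ }
  have hBn : B.Normal := by
    refine ⟨fun a ha g n hn => ?_⟩
    have e : ⁅g * a * g⁻¹, n⁆ = g * ⁅a, g⁻¹ * n * g⁻¹⁻¹⁆ * g⁻¹ := by simp only [commutatorElement_def]; group
    rw [e]
    exact h.vn.conj_mem _ (ha _ (hN.n.conj_mem n hn g⁻¹)) g
  obtain ⟨P, hP⟩ := h.syl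
  have hSB : (P : Subgroup X) ≤ B := by
    refine le_of_idx h.noIdx P B hBn ?_
    intro s hs s' hs' hsB hs'B
    rw [hP] at hs hs'
    by_contra hcon
    have hss := S.mul_mem hs hs'
    have hnot : ∀ g ∈ S, g ∉ B → ∀ m ∈ N, m ∉ h.W → ⁅g, m⁆ ∉ V := by
      intro g hg hgB m hm hmW hgm
      exact hgB (fun n hn => h.stab_or hN ht ht2 htV hnab hg hm hmW hgm hn)
    have main : ∀ m ∈ N, m ∉ h.W → ∀ w ∈ h.W, w * w = ⁅m, w⁆ := by
      intro m hm hmW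
      have hδW := h.cc_mem_W hN ht ht2 htV hnab hs hm
      have hδ'W := h.cc_mem_W hN ht ht2 htV hnab hs' hm
      have hδV := hnot s hs hsB m hm hmW
      have hδ'V := hnot s' hs' hs'B m hm hmW
      have hδδV := hnot _ hss hcon m hm hmW
      have r1 := h.cc_sq hN ht ht2 htV hnab hs hm
      have r2 := h.cc_sq hN ht ht2 htV hnab hs' hm
      set δ := ⁅s, m⁆ with hδ
      set δ' := ⁅s', m⁆ with hδ'
      have e1 : ⁅s * s', m⁆ = ⁅s, δ'⁆ * (δ' * δ) := by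
        rw [hδ, hδ']; simp only [commutatorElement_def]; group
      have hsδ' : ⁅s, δ'⁆ ∈ V := hδ'W.2.2 s hs
      have hprod : δ' * δ ∉ V := fun e => hδδV (by rw [e1]; exact V.mul_mem hsδ' e)
      -- the subgroup where the relation holds
      let Y : Subgroup X :=
        { carrier := {w | w ∈ h.W ∧ w * w = ⁅m, w⁆}
          one_mem' := ⟨(h.W).one_mem, by rw [commutatorElement_one_right, one_mul]⟩
          mul_mem' := by
            rintro a b ⟨ha, ha2⟩ ⟨hb, hb2⟩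
            refine ⟨(h.W).mul_mem ha hb, ?_⟩
            have hmb := hN.cm b (hWN hb) m hm
            rw [h.cc_right (h.W_le ha) hmb, ← ha2, ← hb2]
            have hab := h.W_ab ht ht2 htV ha hb
            calc a * b * (a * b) = a * (b * a) * b := by group
              _ = a * (a * b) * b := by rw [hab]
              _ = _ := by group
          inv_mem' := by
            rintro a ⟨ha, ha2⟩
            refine ⟨(h.W).inv_mem ha, ?_⟩
            have hma := hN.cm a (hWN ha) m hm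
            have h3 := hN.cm _ (N.inv_mem (hWN ha)) m hm
            have h4 := h.cc_right (a := m) (b := a) (c := a⁻¹) (h.W_le ha) h3
            rw [mul_inv_cancel, commutatorElement_one_right] at h4
            have h5 := (inv_eq_of_mul_eq_one_right h4.symm).symm
            rw [h5, ← ha2, mul_inv_rev] }
      have hVY : V ≤ Y := fun v hv => ⟨h.V_le_W hv, by rw [h.v2 v hv]; exact (cc_one.2 (h.vc hv (hN.NS hm))).symm⟩
      have hδY : δ ∈ Y := ⟨hδW, r1⟩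
      have hδ'Y : δ' ∈ Y := ⟨hδ'W, r2⟩
      have hδ1 : δ * δ ≠ 1 := fun e => hδV (h.W_sq_one hδW e)
      have hδ'1 : δ' * δ' ≠ 1 := fun e => hδ'V (h.W_sq_one hδ'W e)
      have hne : δ' * δ' ≠ δ * δ := by
        intro e
        have h3 := h.W_inj ht ht2 htV hδ'W hδW e
        apply hprod
        have e2 : δ' * δ = (δ' * δ') * (δ'⁻¹ * δ) := by group
        rw [e2]
        exact V.mul_mem hδ'W.2.1 h3
      intro w hw
      have hwY : w ∈ Y := by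
        have hcase : ∀ y ∈ Y, w * w = y * y → w ∈ Y := by
          intro y hy e
          have h3 := h.W_inj ht ht2 htV hy.1 hw e.symm
          have h4 := Y.mul_mem hy (hVY h3)
          rwa [mul_inv_cancel_left] at h4
        rcases h.v_cases hδ'W.2.1 hδW.2.1 hδ'1 hδ1 hne hw.2.1 with h3 | h3 | h3 | h3
        · exact hVY (h.W_sq_one hw h3)
        · exact hcase _ hδ'Y h3
        · exact hcase _ hδY h3
        · refine hcase (δ' * δ) (Y.mul_mem hδ'Y hδY) ?_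
          rw [h3]
          have hab := h.W_ab ht ht2 htV hδ'W hδW
          calc δ' * δ' * (δ * δ) = δ' * (δ' * δ) * δ := by group
            _ = δ' * (δ * δ') * δ := by rw [hab]
            _ = _ := by group
      exact hwY.2
    obtain ⟨w, hw, hwV⟩ := h.exists_w hN ht ht2 htV
    have h1 := main c hc hcW w hw
    have h2 := main d hd hdW w hw
    have h3 : ⁅c⁻¹ * d, w⁆ = 1 := by
      have hcw := hN.cm w (hWN hw) c hc
      have hdw := hN.cm w (hWN hw) d hd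
      have hciw := hN.cm w (hWN hw) _ (N.inv_mem hc)
      rw [h.cc_left (hN.NS (N.inv_mem hc)) hdw]
      have h4 := h.cc_left (hN.NS (N.inv_mem hc)) hcw
      rw [inv_mul_cancel, commutatorElement_one_left] at h4
      rw [← h2, h1]; exact h4.symm
    exact hcd (hCW w hw hwV _ (N.mul_mem (N.inv_mem hc) hd) (cc_one.1 h3))
  rw [hP] at hSB
  apply hcW
  exact ⟨hN.NS hc, hN.sq c hc, fun s hs => hSB hs c hc⟩

end minN

end Loc

end Cfsg.Agent.H285.Fs
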