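import Cfsg.Agent.H285.FsE

/-!
# A self-centralizing normal abelian subgroup; `S` is normal
-/

set_option autoImplicit false
set_option linter.unusedSectionVars false

open Subgroup
open scoped commutatorElement

namespace Cfsg.Agent.H285.Fs

variable {X : Type*} [Group X] [Finite X] {S V : Subgroup X}

theorem conj_pow {y z c : X} (h : y * z = c * z * y) (hc : y * c = c * y) (j : ℕ) : y ^ j * z = c ^ j * z * y ^ j := by
  induction j with
  | zero => simp
  | succ j ih =>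
    have hcj : y * c ^ j = c ^ j * y := (Commute.pow_right hc j)
    calc y ^ (j + 1) * z = y * (y ^ j * z) := by rw [pow_succ']; group
      _ = y * (c ^ j * z * y ^ j) := by rw [ih]
      _ = (y * c ^ j) * z * y ^ j := by group
      _ = (c ^ j * y) * z * y ^ j := by rw [hcj]
      _ = c ^ j * (y * z) * y ^ j := by group
      _ = c ^ j * (c * z * y) * y ^ j := by rw [h]
      _ = c ^ (j + 1) * z * y ^ (j + 1) := by rw [pow_succ c j, pow_succ' y j]; group

theorem eq_one_of_two_odd {c : X} {k m : ℕ} (h2 : c ^ 2 ^ k = 1) (hm : c ^ m = 1) (hodd : Odd m) : c = 1 := by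
  rw [← orderOf_eq_one_iff]
  have hco : Nat.Coprime (2 ^ k) m := Nat.Coprime.pow_left k ((Nat.coprime_two_left).2 hodd)
  exact Nat.eq_one_of_dvd_coprimes hco (orderOf_dvd_of_pow_eq_one h2) (orderOf_dvd_of_pow_eq_one hm)

theorem isPGroup_of_odd {D : Subgroup X} (h : ∀ y ∈ D, Odd (orderOf y) → y = 1) : IsPGroup 2 D := by
  intro g
  obtain ⟨k, m, hm, hkm⟩ := Nat.exists_eq_two_pow_mul_odd (n := orderOf (g : X)) (orderOf_pos _).ne'
  refine ⟨k, Subtype.ext ?_⟩
  refine h _ (D.pow_mem g.2 _) ?_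
  have hg : Nat.gcd (2 ^ k * m) (2 ^ k) = 2 ^ k := Nat.gcd_eq_right (dvd_mul_right _ _)
  rw [SubmonoidClass.coe_pow, orderOf_pow' _ (by positivity), hkm, hg,
    Nat.mul_div_cancel_left _ (by positivity)]
  exact hm

namespace Loc

variable (h : Loc S V)

/-- a normal abelian subgroup above `W` -/
structure Ab (h : Loc S V) (Z : Subgroup X) : Prop where
  n : Z.Normal
  ZS : Z ≤ S
  WZ : h.W ≤ Z
  ab : ∀ a ∈ Z, ∀ b ∈ Z, a * b = b * a

/-- the squares -/
def Sq {Z : Subgroup X} (hZ : Ab h Z) : Subgroup X where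
  carrier := {g | ∃ z ∈ Z, z * z = g}
  one_mem' := ⟨1, Z.one_mem, one_mul 1⟩
  mul_mem' := by
    rintro _ _ ⟨a, ha, rfl⟩ ⟨b, hb, rfl⟩
    refine ⟨a * b, Z.mul_mem ha hb, ?_⟩
    calc a * b * (a * b) = a * (b * a) * b := by group
      _ = a * (a * b) * b := by rw [hZ.ab a ha b hb]
      _ = _ := by group
  inv_mem' := by
    rintro _ ⟨a, ha, rfl⟩
    exact ⟨a⁻¹, Z.inv_mem ha, by group⟩

section ab

variable {Z : Subgroup X} {t : X} (hZ : Ab h Z) (ht : t ∈ S) (ht2 : t * t = 1) (htV : t ∉ V)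

theorem Ab.VZ {h : Loc S V} (hZ : Ab h Z) : V ≤ Z := h.V_le_W.trans hZ.WZ

theorem mem_Sq {g : X} : g ∈ h.Sq hZ ↔ ∃ z ∈ Z, z * z = g := Iff.rfl

theorem Sq_le : h.Sq hZ ≤ Z := by
  rintro _ ⟨z, hz, rfl⟩; exact Z.mul_mem hz hz

theorem Sq_normal : (h.Sq hZ).Normal := by
  refine ⟨?_⟩
  rintro _ ⟨z, hz, rfl⟩ g
  exact ⟨g * z * g⁻¹, hZ.n.conj_mem z hz g, by group⟩

theorem Ab.om {h : Loc S V} (hZ : Ab h Z) {a : X} (ha : a ∈ Z) (ha2 : a * a = 1) : a ∈ V :=
  h.omega hZ.ZS (fun s _ a ha => hZ.n.conj_mem a ha s) hZ.ab hZ.VZ ha ha2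

theorem card_Z_le : Nat.card Z ≤ 4 * Nat.card (h.Sq hZ) := by
  have h1 := Cfsg.Agent.Classification.FourGenMain.card_le_fiber (X := Z) (K := V) (Y := h.Sq hZ)
    (fun x => ⟨(x : X) * x, ⟨x, x.2, rfl⟩⟩) (by
      intro x y hxy
      have h2 : (x : X) * x = y * y := congrArg Subtype.val hxy
      refine hZ.om (Z.mul_mem (Z.inv_mem x.2) y.2) ?_
      have h3 := hZ.ab _ (Z.inv_mem x.2) _ y.2
      calc (x : X)⁻¹ * y * ((x : X)⁻¹ * y) = (x : X)⁻¹ * (y * (x : X)⁻¹) * y := by group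
        _ = (x : X)⁻¹ * ((x : X)⁻¹ * y) * y := by rw [h3]
        _ = ((x : X) * x)⁻¹ * (y * y) := by group
        _ = 1 := by rw [h2, inv_mul_cancel])
  rw [h.v4, mul_comm] at h1
  exact h1

include hZ ht ht2 htV

theorem V_le_Sq : V ≤ h.Sq hZ := by
  intro v hv
  obtain ⟨w, hw, hwv⟩ := h.W_surj ht ht2 htV hv
  exact ⟨w, hZ.WZ hw, hwv⟩

/-- elements of `Z` with square in `V` are in `W` -/
theorem mem_W_of_sq {z : X} (hz : z ∈ Z) (hz2 : z * z ∈ V) : z ∈ h.W := by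
  obtain ⟨w, hw, hwz⟩ := h.W_surj ht ht2 htV hz2
  have hwZ := hZ.WZ hw
  have h1 : w⁻¹ * z ∈ V := by
    refine hZ.om (Z.mul_mem (Z.inv_mem hwZ) hz) ?_
    have h3 := hZ.ab _ (Z.inv_mem hwZ) _ hz
    calc w⁻¹ * z * (w⁻¹ * z) = w⁻¹ * (z * w⁻¹) * z := by group
      _ = w⁻¹ * (w⁻¹ * z) * z := by rw [h3]
      _ = (w * w)⁻¹ * (z * z) := by group
      _ = 1 := by rw [hwz, inv_mul_cancel]
  have h2 := (h.W).mul_mem hw (h.V_le_W h1)
  rwa [mul_inv_cancel_left] at h2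

/-- A maximal normal abelian subgroup contained in the normal 2-subgroup `Q` is self-centralizing in `Q`. -/
theorem selfcent {Q : Subgroup X} (hQ : IsPGroup 2 Q) (hQn : Q.Normal) (hQS : Q ≤ S) (hZQ : Z ≤ Q)
    (hmax : ∀ M : Subgroup X, M.Normal → M ≤ Q → Z ≤ M → (∀ a ∈ M, ∀ b ∈ M, a * b = b * a) → M = Z) :
    ∀ q ∈ Q, (∀ z ∈ Z, z * q = q * z) → q ∈ Z := by
  intro q hq hqz
  by_contra hqZ
  have hZn := hZ.n
  let C : Subgroup X := Q ⊓ centralizer (Z : Set X)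
  have hCn : C.Normal := by
    have := hQn; exact inferInstance
  have hZC : Z ≤ C := fun z hz => ⟨hZQ hz, mem_centralizer_iff.2 (fun y hy => hZ.ab y hy z hz)⟩
  obtain ⟨M, hMn, hZM, hne, hMC, hmin, hsq, hcm⟩ := exists_min (A := Z) (Q := C) (hQ.to_le inf_le_left) hZ.n hCn hZC
    (fun e => hqZ (by rw [e]; exact ⟨hq, mem_centralizer_iff.2 hqz⟩))
  have hMQ : M ≤ Q := hMC.trans inf_le_left
  have hMS : M ≤ S := hMQ.trans hQS
  have hMZ : ∀ m ∈ M, ∀ z ∈ Z, z * m = m * z := fun m hm z hz => mem_centralizer_iff.1 (hMC hm).2 z hz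
  -- commutators of M are in V
  have hcV : ∀ a ∈ M, ∀ b ∈ M, ⁅a, b⁆ ∈ V := by
    intro a ha b hb
    have h1 : ⁅a, b⁆ ∈ Z := hcm b hb a ha
    refine hZ.om h1 ?_
    have h2 : ⁅a, b * b⁆ = ⁅a, b⁆ * (b * ⁅a, b⁆ * b⁻¹) := by simp only [commutatorElement_def]; group
    have h3 : b * ⁅a, b⁆ * b⁻¹ = ⁅a, b⁆ := by rw [← hMZ b hb _ h1, mul_inv_cancel_right]
    rw [h3] at h2
    rw [← h2]
    exact cc_one.2 (hMZ a ha _ (hsq b hb)).symm
  have hnab : ∃ a ∈ M, ∃ b ∈ M, a * b ≠ b * a := by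
    by_contra hcon
    push Not at hcon
    exact hne (hmax M hMn hMQ hZM hcon).symm
  -- K₀
  have hVSq := h.V_le_Sq hZ ht ht2 htV
  have hsqmul : ∀ a ∈ M, ∀ b ∈ M, ∃ v ∈ V, a * b * (a * b) = v * (a * a * (b * b)) := by
    intro a ha b hb
    have h1 := hcV b hb a ha
    refine ⟨⁅b, a⁆, h1, ?_⟩
    have h2 := h.vc h1 (hMS ha)
    calc a * b * (a * b) = (a * ⁅b, a⁆) * (a * (b * b)) := by simp only [commutatorElement_def]; group
      _ = (⁅b, a⁆ * a) * (a * (b * b)) := by rw [h2]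
      _ = _ := by group
  let K : Subgroup X :=
    { carrier := {a | a ∈ M ∧ a * a ∈ h.Sq hZ}
      one_mem' := ⟨M.one_mem, by rw [one_mul]; exact (h.Sq hZ).one_mem⟩
      mul_mem' := by
        rintro a b ⟨ha, ha2⟩ ⟨hb, hb2⟩
        refine ⟨M.mul_mem ha hb, ?_⟩
        obtain ⟨v, hv, e⟩ := hsqmul a ha b hb
        rw [e]
        exact (h.Sq hZ).mul_mem (hVSq hv) ((h.Sq hZ).mul_mem ha2 hb2)
      inv_mem' := by
        rintro a ⟨ha, ha2⟩
        refine ⟨M.inv_mem ha, ?_⟩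
        rw [← mul_inv_rev]; exact (h.Sq hZ).inv_mem ha2 }
  have hKn : K.Normal := by
    refine ⟨?_⟩
    rintro a ⟨ha, ha2⟩ g
    refine ⟨hMn.conj_mem _ ha g, ?_⟩
    have e : g * a * g⁻¹ * (g * a * g⁻¹) = g * (a * a) * g⁻¹ := by group
    rw [e]; exact (h.Sq_normal hZ).conj_mem _ ha2 g
  have hZK : Z ≤ K := fun z hz => ⟨hZM hz, ⟨z, hz, rfl⟩⟩
  rcases hmin K hKn hZK (fun a ha => ha.1) with hK | hK
  · -- K = Z: M / Z has order at most 4
    have hcard : Nat.card M ≤ 4 * Nat.card Z := by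
      have h1 := Cfsg.Agent.Classification.FourGenMain.card_le_fiber (X := M) (K := Z)
        (Y := Z ⧸ (h.Sq hZ).subgroupOf Z) (fun x => QuotientGroup.mk (⟨(x : X) * x, hsq x x.2⟩ : Z)) (by
          intro x y hxy
          have h2 : ((x : X) * x)⁻¹ * ((y : X) * y) ∈ h.Sq hZ := by
            have := QuotientGroup.eq.1 hxy
            exact this
          rw [← hK]
          refine ⟨M.mul_mem (M.inv_mem x.2) y.2, ?_⟩
          obtain ⟨v, hv, e⟩ := hsqmul _ (M.inv_mem x.2) _ y.2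
          rw [e]
          refine (h.Sq hZ).mul_mem (hVSq hv) ?_
          rwa [← mul_inv_rev])
      have h5 : Nat.card (h.Sq hZ) * Nat.card (Z ⧸ (h.Sq hZ).subgroupOf Z) = Nat.card Z := by
        rw [← Nat.card_congr (Subgroup.subgroupOfEquivOfLe (h.Sq_le hZ)).toEquiv, mul_comm]
        exact (Subgroup.card_eq_card_quotient_mul_card_subgroup _).symm
      have h6 := h.card_Z_le hZ
      rw [← h5] at h6
      have h7 : 0 < Nat.card (h.Sq hZ) := Nat.card_pos
      have h8 : Nat.card (Z ⧸ (h.Sq hZ).subgroupOf Z) ≤ 4 := by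
        rw [mul_comm 4] at h6
        exact Nat.le_of_mul_le_mul_left h6 h7
      exact h1.trans (Nat.mul_le_mul_right _ h8)
    -- commutator maps have image of order ≤ 2
    have hrng : ∀ a ∈ M, ∀ v : X, v ≠ 1 → (∃ b ∈ M, ⁅b, a⁆ = v) → ∀ m ∈ M, ⁅m, a⁆ = 1 ∨ ⁅m, a⁆ = v := by
      intro a ha v hv1 ⟨b, hb, hbv⟩ m hm
      by_contra hcon
      push Not at hcon
      let Z1 : Subgroup X := M ⊓ centralizer ({a} : Set X)
      let Z2 : Subgroup X :=
        { carrier := {n | n ∈ M ∧ (⁅n, a⁆ = 1 ∨ ⁅n, a⁆ = v)}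
          one_mem' := ⟨M.one_mem, Or.inl (commutatorElement_one_left a)⟩
          mul_mem' := by
            rintro c d ⟨hc, hc1⟩ ⟨hd, hd1⟩
            refine ⟨M.mul_mem hc hd, ?_⟩
            rw [h.cc_left (hMS hc) (hcV d hd a ha)]
            have hv2 : v ∈ V → v * v = 1 := h.v2 v
            rcases hd1 with h2 | h2 <;> rcases hc1 with h3 | h3
            · left; rw [h2, h3, one_mul]
            · right; rw [h2, h3, one_mul]
            · right; rw [h2, h3, mul_one]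
            · left; rw [h2, h3]; exact hv2 (h2 ▸ hcV d hd a ha)
          inv_mem' := by
            rintro c ⟨hc, hc1⟩
            refine ⟨M.inv_mem hc, ?_⟩
            have h2 := h.cc_left (hMS (M.inv_mem hc)) (hcV c hc a ha) (c := a)
            rw [inv_mul_cancel, commutatorElement_one_left] at h2
            have h3 := eq_inv_of_mul_eq_one_right h2.symm
            rw [h3, h.v_inv (hcV c hc a ha)]
            exact hc1 }
      have haZ : a ∉ Z := by
        intro e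
        have h2 := hMZ b hb a e
        apply hv1
        rw [← hbv]
        exact cc_one.2 h2.symm
      have h1 := two_mul_card_le (A := Z) (B := Z1) (fun z hz => ⟨hZM hz, mem_centralizer_singleton_iff.2
        (hMZ a ha z hz)⟩) (by
          intro e
          exact haZ (e ▸ (⟨ha, mem_centralizer_singleton_iff.2 rfl⟩ : a ∈ Z1)))
      have h2 := two_mul_card_le (A := Z1) (B := Z2) (fun z hz => ⟨hz.1, Or.inl (cc_one.2
        (mem_centralizer_singleton_iff.1 hz.2))⟩) (by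
          intro e
          have h3 : b ∈ Z2 := ⟨hb, Or.inr hbv⟩
          rw [← e] at h3
          apply hv1
          rw [← hbv]
          exact cc_one.2 (mem_centralizer_singleton_iff.1 h3.2))
      have h3 := two_mul_card_le (A := Z2) (B := M) (fun z hz => hz.1) (by
          intro e
          rw [← e] at hm
          rcases hm.2 with h4 | h4
          · exact hcon.1 h4
          · exact hcon.2 h4)
      have h4 : 0 < Nat.card Z := Nat.card_pos
      omega
    obtain ⟨a, ha, b, hb, hab⟩ := hnab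
    have hv1 : ⁅a, b⁆ ≠ 1 := fun e => hab (cc_one.1 e)
    have hvV := hcV a ha b hb
    -- all commutators are in {1, v}
    have hb1 := hrng b hb _ hv1 ⟨a, ha, rfl⟩
    have ha1 := hrng a ha _ hv1 ⟨b, hb, h.cc_symm hvV⟩
    have hall : ∀ m ∈ M, ∀ n ∈ M, ⁅n, m⁆ = 1 ∨ ⁅n, m⁆ = ⁅a, b⁆ := by
      intro m hm n hn
      rcases ha1 m hm with h1 | h1
      · -- use m b
        have h2 : ⁅a, m * b⁆ = ⁅a, b⁆ := by
          rw [h.cc_right (hMS hm) hvV, h.cc_symm (hcV m hm a ha), h1, one_mul]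
        have h3 := hrng (m * b) (M.mul_mem hm hb) _ hv1 ⟨a, ha, h2⟩ n hn
        rw [h.cc_right (hMS hm) (hcV n hn b hb)] at h3
        have hnm := hcV n hn m hm
        rcases hb1 n hn with h4 | h4
        · rw [h4, mul_one] at h3; exact h3
        · rw [h4] at h3
          rcases h3 with h5 | h5
          · right
            rw [eq_inv_of_mul_eq_one_left h5, h.v_inv hvV]
          · left
            exact mul_eq_right.1 h5
      · exact hrng m hm _ hv1 ⟨a, ha, by rw [h.cc_symm (hcV m hm a ha)]; exact h1⟩ n hn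
    obtain ⟨u, hu, w, hw, hu1, hw1, huw⟩ := h.exists_two
    obtain ⟨v', hv', hv'1, hv'v⟩ : ∃ v' ∈ V, v' ≠ 1 ∧ v' ≠ ⁅a, b⁆ := by
      by_cases hc : u = ⁅a, b⁆
      · exact ⟨w, hw, hw1, fun e => huw (hc.trans e.symm)⟩
      · exact ⟨u, hu, hu1, hc⟩
    obtain ⟨x, _, hx⟩ := h.tr hvV hv' hv1 hv'1
    have h5 : ⁅x * a * x⁻¹, x * b * x⁻¹⁆ = v' := by
      rw [← hx]; simp only [commutatorElement_def]; group
    rcases hall _ (hMn.conj_mem b hb x) _ (hMn.conj_mem a ha x) with h6 | h6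
    · exact hv'1 (h5.symm.trans h6)
    · exact hv'v (h5.symm.trans h6)
  · -- K = M
    have hex : ∃ m ∈ M, m ∉ Z := by
      by_contra hcon
      push Not at hcon
      exact hne (le_antisymm hZM hcon)
    obtain ⟨a, ha, haZ, _, hac⟩ := exists_mid' h.isP hMS (fun s _ a ha => hZ.n.conj_mem a ha s)
      (fun s _ a ha => hMn.conj_mem a ha s) hex
    have haK : a ∈ K := by rw [hK]; exact ha
    obtain ⟨z, hz, hza⟩ := haK.2
    have hcomm := hMZ a ha z hz
    have hcomm' : a * z⁻¹ = z⁻¹ * a := by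
      have := hMZ a ha z⁻¹ (Z.inv_mem hz); exact this.symm
    obtain ⟨a', ha'⟩ : ∃ a' : X, a' = a * z⁻¹ := ⟨_, rfl⟩
    have ha'M : a' ∈ M := by rw [ha']; exact M.mul_mem ha (hZM (Z.inv_mem hz))
    have ha'2 : a' * a' = 1 := by
      calc a' * a' = a * (z⁻¹ * a) * z⁻¹ := by rw [ha']; group
        _ = a * (a * z⁻¹) * z⁻¹ := by rw [hcomm']
        _ = (a * a) * (z * z)⁻¹ := by group
        _ = 1 := by rw [hza, mul_inv_cancel]
    have ha'V : a' ∈ V := by
      refine h.kill (hMS ha'M) ha'2 (fun s hs => ?_)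
      have h1 : ⁅s, a'⁆ ∈ Z := by
        have e : ⁅s, a'⁆ = ⁅s, a⁆ * (a * ⁅s, z⁻¹⁆ * a⁻¹) := by
          rw [ha']; simp only [commutatorElement_def]; group
        rw [e]
        refine Z.mul_mem (hac s hs) (hZ.n.conj_mem _ ?_ a)
        have e2 : ⁅s, z⁻¹⁆ = (s * z⁻¹ * s⁻¹) * z⁻¹⁻¹ := rfl
        rw [e2]
        exact Z.mul_mem (hZ.n.conj_mem _ (Z.inv_mem hz) s) (Z.inv_mem (Z.inv_mem hz))
      refine hZ.om h1 ?_
      have h2 := hMZ a' ha'M _ h1
      have h3 : s * a' * s⁻¹ = ⁅s, a'⁆ * a' := by rw [commutatorElement_def]; group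
      calc ⁅s, a'⁆ * ⁅s, a'⁆ = ⁅s, a'⁆ * ⁅s, a'⁆ * (a' * a') := by rw [ha'2, mul_one]
        _ = ⁅s, a'⁆ * (⁅s, a'⁆ * a') * a' := by group
        _ = ⁅s, a'⁆ * (a' * ⁅s, a'⁆) * a' := by rw [h2]
        _ = (⁅s, a'⁆ * a') * (⁅s, a'⁆ * a') := by group
        _ = (s * a' * s⁻¹) * (s * a' * s⁻¹) := by rw [h3]
        _ = s * (a' * a') * s⁻¹ := by group
        _ = 1 := by rw [ha'2]; group
    apply haZ
    have h4 := Z.mul_mem (hZ.VZ ha'V) hz
    rw [ha', inv_mul_cancel_right] at h4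
    exact h4

/-- elements of odd order centralizing `V` centralize `Z` -/
theorem odd_cent {y : X} (hyV : ∀ v ∈ V, y * v = v * y) {m : ℕ} (hm : y ^ m = 1) (hodd : Odd m) :
    ∀ z ∈ Z, y * z = z * y := by
  have key : ∀ k : ℕ, ∀ z ∈ Z, z ^ 2 ^ k = 1 → y * z = z * y := by
    intro k
    induction k with
    | zero =>
      intro z _ hz1
      rw [pow_zero, pow_one] at hz1
      rw [hz1, mul_one, one_mul]
    | succ k ih =>
      intro z hz hz1
      have h1 : y * (z * z) = (z * z) * y := by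
        refine ih (z * z) (Z.mul_mem hz hz) ?_
        rw [← pow_two, ← pow_mul, ← pow_succ']; exact hz1
      have hc : ⁅y, z⁆ ∈ Z := by
        have e : ⁅y, z⁆ = (y * z * y⁻¹) * z⁻¹ := rfl
        rw [e]; exact Z.mul_mem (hZ.n.conj_mem z hz y) (Z.inv_mem hz)
      have hcz := hZ.ab _ hc _ hz
      have h2 : y * z = ⁅y, z⁆ * z * y := by rw [commutatorElement_def]; group
      have hc2 : ⁅y, z⁆ * ⁅y, z⁆ = 1 := by
        have h3 : y * (z * z) = (⁅y, z⁆ * ⁅y, z⁆) * (z * z) * y := by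
          calc y * (z * z) = (y * z) * z := by group
            _ = (⁅y, z⁆ * z * y) * z := by rw [← h2]
            _ = ⁅y, z⁆ * z * (y * z) := by group
            _ = ⁅y, z⁆ * z * (⁅y, z⁆ * z * y) := by rw [← h2]
            _ = ⁅y, z⁆ * (z * ⁅y, z⁆) * z * y := by group
            _ = ⁅y, z⁆ * (⁅y, z⁆ * z) * z * y := by rw [hcz]
            _ = _ := by group
        rw [h1] at h3
        have h4 := mul_right_cancel h3
        exact (mul_eq_right.1 h4.symm)
      have hcV := hZ.om hc hc2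
      have h5 := conj_pow h2 (hyV _ hcV) m
      rw [hm, one_mul, mul_one] at h5
      have h6 : ⁅y, z⁆ ^ m = 1 := mul_eq_right.1 h5.symm
      have h7 : ⁅y, z⁆ = 1 := eq_one_of_two_odd (k := 1) (by rw [pow_one, pow_two]; exact hc2) h6 hodd
      exact cc_one.1 h7
  intro z hz
  obtain ⟨k, hk⟩ := h.isP ⟨z, hZ.ZS hz⟩
  exact key k z hz (congrArg Subtype.val hk)

end ab

/-- The constrained situation: a self-centralizing normal abelian subgroup. -/
theorem exists_Z (h : Loc S V) {Q : Subgroup X} (hQ : IsPGroup 2 Q) (hQn : Q.Normal)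
    (hQmax : ∀ M : Subgroup X, M.Normal → IsPGroup 2 M → M ≤ Q) (hQc : centralizer (Q : Set X) ≤ Q)
    {t : X} (ht : t ∈ S) (ht2 : t * t = 1) (htV : t ∉ V) :
    ∃ Z : Subgroup X, Ab h Z ∧ (∀ g : X, (∀ z ∈ Z, g * z = z * g) → g ∈ Z) := by
  have hQS : Q ≤ S := by
    obtain ⟨P, rfl⟩ := h.syl
    exact normal_le hQ hQn P
  have hVQ : V ≤ Q := hQmax V h.vn h.vp
  have hne : V ≠ Q := by
    intro e
    apply htV
    rw [e]
    apply hQc
    rw [mem_centralizer_iff, ← e]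
    intro v hv
    exact (h.vc hv ht).symm
  obtain ⟨N, hNn, hVN, hneN, hNQ, hmin, hsq, hcm⟩ := exists_min hQ h.vn hQn hVQ hne
  have hN : MinN h N := ⟨hNn, hVN, hneN, hNQ.trans hQS, hmin, hsq, hcm⟩
  have hNW := h.eq_W hN ht ht2 htV
  have hWn : h.W.Normal := hNW ▸ hNn
  have hWQ : h.W ≤ Q := hNW ▸ hNQ
  -- maximal normal abelian subgroup
  obtain ⟨Z, ⟨hZn, hZQ, hWZ, hZab⟩, hZmax⟩ := Set.Finite.exists_maximal
    (Set.toFinite {M : Subgroup X | M.Normal ∧ M ≤ Q ∧ h.W ≤ M ∧ ∀ a ∈ M, ∀ b ∈ M, a * b = b * a})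
    ⟨h.W, hWn, hWQ, le_rfl, fun a ha b hb => h.W_ab ht ht2 htV ha hb⟩
  have hZ : Ab h Z := ⟨hZn, hZQ.trans hQS, hWZ, hZab⟩
  have hself := h.selfcent hZ ht ht2 htV hQ hQn hQS hZQ (fun M hM hMQ hZM hMab =>
    le_antisymm (hZmax ⟨hM, hMQ, hWZ.trans hZM, hMab⟩ hZM) hZM)
  refine ⟨Z, hZ, ?_⟩
  let D : Subgroup X := centralizer (Z : Set X)
  have hDn : D.Normal := by have := hZn; exact inferInstance
  have hDp : IsPGroup 2 D := by
    refine isPGroup_of_odd ?_
    intro y hy hodd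
    have hyQ : ∀ q ∈ Q, y * q = q * y := by
      intro q hq
      have h1 : ⁅y, q⁆ ∈ Q := by
        have e : ⁅y, q⁆ = (y * q * y⁻¹) * q⁻¹ := rfl
        rw [e]; exact Q.mul_mem (hQn.conj_mem q hq y) (Q.inv_mem hq)
      have h2 : ⁅y, q⁆ ∈ D := by
        have e : ⁅y, q⁆ = y * (q * y⁻¹ * q⁻¹) := by rw [commutatorElement_def]; group
        rw [e]; exact D.mul_mem hy (hDn.conj_mem _ (D.inv_mem hy) q)
      have h3 := hself _ h1 (mem_centralizer_iff.1 h2)
      have h4 : y * q = ⁅y, q⁆ * q * y := by rw [commutatorElement_def]; group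
      have h5 : y * ⁅y, q⁆ = ⁅y, q⁆ * y := (mem_centralizer_iff.1 hy _ h3).symm
      have h6 := conj_pow h4 h5 (orderOf y)
      rw [pow_orderOf_eq_one, one_mul, mul_one] at h6
      have h7 : ⁅y, q⁆ ^ orderOf y = 1 := mul_eq_right.1 h6.symm
      obtain ⟨k, hk⟩ := hQ ⟨_, h1⟩
      have h8 : ⁅y, q⁆ = 1 := eq_one_of_two_odd (k := k) (congrArg Subtype.val hk) h7 hodd
      exact cc_one.1 h8
    have hyQ' : y ∈ Q := hQc (mem_centralizer_iff.2 (fun q hq => (hyQ q hq).symm))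
    obtain ⟨k, hk⟩ := hQ ⟨y, hyQ'⟩
    exact eq_one_of_two_odd (k := k) (congrArg Subtype.val hk) (pow_orderOf_eq_one y) hodd
  intro g hg
  have hgD : g ∈ D := mem_centralizer_iff.2 (fun z hz => (hg z hz).symm)
  exact hself g (hQmax D hDn hDp hgD) (fun z hz => (hg z hz).symm)

/-- `S = C_X(V)` is normal. -/
theorem S_eq (h : Loc S V) {Z : Subgroup X} (hZ : Ab h Z) (hself : ∀ g : X, (∀ z ∈ Z, g * z = z * g) → g ∈ Z)
    {t : X} (ht : t ∈ S) (ht2 : t * t = 1) (htV : t ∉ V) : S = centralizer (V : Set X) := by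
  have h1 : S ≤ centralizer (V : Set X) := fun s hs => mem_centralizer_iff.2 (fun v hv => (h.vc hv hs).symm)
  have hn : (centralizer (V : Set X)).Normal := by have := h.vn; exact inferInstance
  have hp : IsPGroup 2 (centralizer (V : Set X)) := by
    refine isPGroup_of_odd ?_
    intro y hy hodd
    have h2 := h.odd_cent hZ ht ht2 htV (fun v hv => (mem_centralizer_iff.1 hy v hv).symm) (pow_orderOf_eq_one y) hodd
    have h3 := hself y h2
    obtain ⟨k, hk⟩ := h.isP ⟨y, hZ.ZS h3⟩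
    exact eq_one_of_two_odd (k := k) (congrArg Subtype.val hk) (pow_orderOf_eq_one y) hodd
  obtain ⟨P, hP⟩ := h.syl
  refine le_antisymm h1 ?_
  rw [← hP]
  exact normal_le hp hn P

end Loc

end Cfsg.Agent.H285.Fs
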