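import Cfsg.Agent.H285.FsF

/-!
# The constrained case is impossible
-/

set_option autoImplicit false
set_option linter.unusedSectionVars false

open Subgroup
open scoped commutatorElement

namespace Cfsg.Agent.H285.Fs

variable {X : Type*} [Group X] [Finite X] {S V : Subgroup X}

namespace Loc

/-- The element `y` of order three, and the elements `w₁`, `w₂`, `w₃` of `W`. -/
structure Y3 (h : Loc S V) (u v y w : X) : Prop where
  hu : u ∈ V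
  hv : v ∈ V
  hu1 : u ≠ 1
  hv1 : v ≠ 1
  huv : u ≠ v
  y3 : y * y * y = 1
  yu : y * u * y⁻¹ = v
  yv : y * v * y⁻¹ = u * v
  yuv : y * (u * v) * y⁻¹ = u
  hw : w ∈ h.W
  ww : w * w = u

section

variable {Z : Subgroup X} {t : X} (h : Loc S V) (hZ : Ab h Z)
  (hself : ∀ g : X, (∀ z ∈ Z, g * z = z * g) → g ∈ Z) (ht : t ∈ S) (ht2 : t * t = 1) (htV : t ∉ V)

include hZ hself ht ht2 htV

theorem exists_Y3 : ∃ u v y w : X, Y3 h u v y w := by
  obtain ⟨u, hu, v, hv, hu1, hv1, huv⟩ := h.exists_two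
  obtain ⟨x, _, hx1, hx2, hx3⟩ := h.cyc hu hv hu1 hv1 huv
  obtain ⟨w, hw, hww⟩ := h.W_surj ht ht2 htV hu
  -- x³ centralizes V
  have hx3c : ∀ z ∈ V, (x * x * x) * z = z * (x * x * x) := by
    intro z hz
    have hconj : (x * x * x) * z * (x * x * x)⁻¹ = z := by
      have e : (x * x * x) * z * (x * x * x)⁻¹ = x * (x * (x * z * x⁻¹) * x⁻¹) * x⁻¹ := by group
      rw [e]
      rcases h.v_cases hu hv hu1 hv1 huv hz with h1 | h1 | h1 | h1
      · rw [h1]; group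
      · rw [h1, hx1, hx2, hx3]
      · rw [h1, hx2, hx3, hx1]
      · rw [h1, hx3, hx1, hx2]
    rw [mul_inv_eq_iff_eq_mul] at hconj
    exact hconj
  have hS := h.S_eq hZ hself ht ht2 htV
  have hx3S : x * x * x ∈ S := by
    rw [hS, mem_centralizer_iff]
    exact fun z hz => (hx3c z hz).symm
  obtain ⟨a, ha⟩ := h.isP ⟨_, hx3S⟩
  have ha' : (x * x * x) ^ 2 ^ a = 1 := congrArg Subtype.val ha
  -- y = x ^ (4 ^ a)
  have h4 : ∃ b : ℕ, 4 ^ a = 3 * b + 1 := by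
    clear ha ha'
    induction a with
    | zero => exact ⟨0, rfl⟩
    | succ a ih =>
      obtain ⟨b, hb⟩ := ih
      exact ⟨4 * b + 1, by rw [pow_succ, hb]; ring⟩
  obtain ⟨b, hb⟩ := h4
  have hxx : x * x * x = x ^ 3 := by rw [pow_succ, pow_two]
  have hyx : ∀ z ∈ V, x ^ 4 ^ a * z * (x ^ 4 ^ a)⁻¹ = x * z * x⁻¹ := by
    intro z hz
    have e : x ^ 4 ^ a = x * (x ^ 3) ^ b := by rw [hb, ← pow_mul, pow_succ']
    have hc : (x ^ 3) ^ b * z = z * (x ^ 3) ^ b := by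
      have := hx3c z hz
      rw [hxx] at this
      exact Commute.pow_left this b
    rw [e]
    calc x * (x ^ 3) ^ b * z * (x * (x ^ 3) ^ b)⁻¹ = x * ((x ^ 3) ^ b * z) * ((x ^ 3) ^ b)⁻¹ * x⁻¹ := by group
      _ = x * (z * (x ^ 3) ^ b) * ((x ^ 3) ^ b)⁻¹ * x⁻¹ := by rw [hc]
      _ = x * z * x⁻¹ := by group
  refine ⟨u, v, x ^ 4 ^ a, w, hu, hv, hu1, hv1, huv, ?_, ?_, ?_, ?_, hw, hww⟩
  · have e : x ^ 4 ^ a * x ^ 4 ^ a * x ^ 4 ^ a = ((x ^ 3) ^ 2 ^ a) ^ 2 ^ a := by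
      rw [← pow_mul, ← pow_mul, ← pow_add, ← pow_add]
      congr 1
      have : (4 : ℕ) ^ a = 2 ^ a * 2 ^ a := by rw [← mul_pow]; norm_num
      rw [this]; ring
    rw [e, ← hxx, ha', one_pow]
  · rw [hyx u hu, hx1]
  · rw [hyx v hv, hx2]
  · rw [hyx _ (V.mul_mem hu hv), hx3]

end

section Y

variable {u v y w : X} {h : Loc S V} (Y : Y3 h u v y w)

include Y

theorem Y3.fpf {z : X} (hz : z ∈ V) (hzy : y * z * y⁻¹ = z) : z = 1 := by
  rcases h.v_cases Y.hu Y.hv Y.hu1 Y.hv1 Y.huv hz with h1 | h1 | h1 | h1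
  · exact h1
  · rw [h1, Y.yu] at hzy; exact absurd hzy.symm Y.huv
  · rw [h1, Y.yv] at hzy; exact absurd (by simpa using hzy) Y.hu1
  · rw [h1, Y.yuv] at hzy
    exact absurd (by simpa using hzy.symm) Y.hv1

theorem Y3.y3' : y⁻¹ = y * y := (eq_inv_of_mul_eq_one_left Y.y3).symm

/-- the norm on `V` is trivial -/
theorem Y3.norm {z : X} (hz : z ∈ V) : z * (y * z * y⁻¹) = y⁻¹ * z * y := by
  have e : y⁻¹ * z * y = y * (y * z * y⁻¹) * y⁻¹ := by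
    have h1 : y = y⁻¹ * y⁻¹ := by
      rw [← mul_inv_rev]; exact eq_inv_of_mul_eq_one_right Y.y3
    have h2 := Y.y3'
    calc y⁻¹ * z * y = (y * y) * z * (y⁻¹ * y⁻¹) := by rw [← h1, ← h2]
      _ = _ := by group
  rw [e]
  rcases h.v_cases Y.hu Y.hv Y.hu1 Y.hv1 Y.huv hz with h1 | h1 | h1 | h1
  · rw [h1]; group
  · rw [h1, Y.yu, Y.yv]
  · rw [h1, Y.yv, Y.yuv]
    rw [h.v_comm Y.hu Y.hv, ← mul_assoc, h.v2 _ Y.hv, one_mul]
  · rw [h1, Y.yuv, Y.yu]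
    calc u * v * u = u * (v * u) := by group
      _ = u * (u * v) := by rw [h.v_comm Y.hu Y.hv]
      _ = (u * u) * v := by group
      _ = v := by rw [h.v2 _ Y.hu, one_mul]

end Y

section main

variable {Z : Subgroup X} {t : X} (h : Loc S V) (hZ : Ab h Z)
  (hself : ∀ g : X, (∀ z ∈ Z, g * z = z * g) → g ∈ Z) (ht : t ∈ S) (ht2 : t * t = 1) (htV : t ∉ V)
  {u v y w : X} (Y : Y3 h u v y w)

/-- commutators with elements of `W` only depend on the square -/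
theorem cc_of_sq (ht : t ∈ S) (ht2 : t * t = 1) (htV : t ∉ V) {a b c : X} (ha : a ∈ h.W) (hb : b ∈ h.W)
    (hc : c ∈ S) (hab : a * a = b * b) : ⁅c, a⁆ = ⁅c, b⁆ := by
  have h1 := h.W_inj ht ht2 htV ha hb hab
  have e : b = a * (a⁻¹ * b) := by group
  have h2 : ⁅c, a⁻¹ * b⁆ = 1 := cc_one.2 (h.vc h1 hc)
  rw [e, h.cc_right (h.W_le ha) (by rw [h2]; exact V.one_mem), h2, mul_one]

include hZ hself ht ht2 htV Y

theorem yN : S.Normal ∧ (∀ g : X, g ∈ S ∨ y⁻¹ * g ∈ S ∨ y * g ∈ S) := by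
  have hS := h.S_eq hZ hself ht ht2 htV
  have hn : S.Normal := by
    rw [hS]; have := h.vn; exact inferInstance
  refine ⟨hn, fun g => ?_⟩
  -- where g sends u
  have hmem : ∀ k : X, k * u * k⁻¹ = u → k ∈ S := by
    intro k hk
    rw [hS, mem_centralizer_iff]
    -- k fixes u, so it fixes V
    have hfix : ∀ z ∈ V, k * z * k⁻¹ = z := by
      have h3 := h.cube k
      have e3 : ∀ z ∈ V, z ≠ 1 → k * (k * (k * z * k⁻¹) * k⁻¹) * k⁻¹ = z := by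
        intro z hz hz1
        have h1 := congrArg (fun σ : Equiv.Perm {v : V // v ≠ 1} =>
          ((σ ⟨⟨z, hz⟩, fun e => hz1 (congrArg Subtype.val e)⟩ : V) : X)) h3
        simp only [Equiv.Perm.mul_apply, Equiv.Perm.one_apply, h.act_apply] at h1
        exact h1
      have hkv : k * v * k⁻¹ = v := by
        have h4 := h.vn.conj_mem _ Y.hv k
        rcases h.v_cases Y.hu Y.hv Y.hu1 Y.hv1 Y.huv h4 with h5 | h5 | h5 | h5
        · exfalso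
          apply Y.hv1
          have := congrArg (fun z => k⁻¹ * z * k) h5
          simpa [mul_assoc] using this
        · exfalso
          apply Y.huv
          have := congrArg (fun z => k⁻¹ * z * k) (hk.trans h5.symm)
          simpa [mul_assoc] using this
        · exact h5
        · exfalso
          have h6 := e3 v Y.hv Y.hv1
          have h7 : k * (u * v) * k⁻¹ = v := by
            calc k * (u * v) * k⁻¹ = (k * u * k⁻¹) * (k * v * k⁻¹) := by group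
              _ = u * (u * v) := by rw [hk, h5]
              _ = (u * u) * v := by group
              _ = v := by rw [h.v2 _ Y.hu, one_mul]
          rw [h5, h7, h5] at h6
          exact Y.hu1 (by simpa using h6)
      intro z hz
      rcases h.v_cases Y.hu Y.hv Y.hu1 Y.hv1 Y.huv hz with h5 | h5 | h5 | h5
      · rw [h5]; group
      · rw [h5]; exact hk
      · rw [h5]; exact hkv
      · rw [h5]
        calc k * (u * v) * k⁻¹ = (k * u * k⁻¹) * (k * v * k⁻¹) := by group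
          _ = u * v := by rw [hk, hkv]
    intro z hz
    have h6 := hfix z hz
    rw [mul_inv_eq_iff_eq_mul] at h6
    exact h6.symm
  have hgu := h.vn.conj_mem _ Y.hu g
  rcases h.v_cases Y.hu Y.hv Y.hu1 Y.hv1 Y.huv hgu with h5 | h5 | h5 | h5
  · exfalso
    apply Y.hu1
    have := congrArg (fun z => g⁻¹ * z * g) h5
    simpa [mul_assoc] using this
  · exact Or.inl (hmem g h5)
  · right; left
    apply hmem
    have e : y⁻¹ * g * u * (y⁻¹ * g)⁻¹ = y⁻¹ * (g * u * g⁻¹) * y := by group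
    rw [e, h5, ← Y.yu]; group
  · right; right
    apply hmem
    have e : y * g * u * (y * g)⁻¹ = y * (g * u * g⁻¹) * y⁻¹ := by group
    rw [e, h5, Y.yuv]

/-- The semilinearity relation. -/
theorem semi {c : X} (hc : c ∈ S) : ⁅c, y * w * y⁻¹⁆ = y⁻¹ * ⁅c, w⁆ * y ∧
    ⁅c, y⁻¹ * w * y⁆ = y * ⁅c, w⁆ * y⁻¹ := by
  obtain ⟨hSn, hcos⟩ := h.yN hZ hself ht ht2 htV Y
  have hyN : y ∈ normalizer (S : Set X) := by
    rw [normalizer_eq_top (H := S)]; exact mem_top y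
  have hwW := Y.hw
  have hw2 : y * w * y⁻¹ ∈ h.W := h.W_norm hyN hwW
  have hw3 : y⁻¹ * w * y ∈ h.W := by
    have := h.W_norm (inv_mem hyN) hwW
    rwa [inv_inv] at this
  have hWV : ∀ a ∈ h.W, ∀ c ∈ S, ⁅c, a⁆ ∈ V := fun a ha c hc => ha.2.2 c hc
  -- the map T
  let T : X → X := fun c => ⁅c, w⁆ * (y⁻¹ * ⁅c, y * w * y⁻¹⁆ * y) * (y * ⁅c, y⁻¹ * w * y⁆ * y⁻¹)
  have hVc1 : ∀ z ∈ V, y * z * y⁻¹ ∈ V := fun z hz => h.vn.conj_mem z hz y
  have hVc2 : ∀ z ∈ V, y⁻¹ * z * y ∈ V := fun z hz => by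
    have := h.vn.conj_mem z hz y⁻¹
    rwa [inv_inv] at this
  have hTV : ∀ c ∈ S, T c ∈ V := fun c hc =>
    V.mul_mem (V.mul_mem (hWV _ hwW c hc) (hVc2 _ (hWV _ hw2 c hc))) (hVc1 _ (hWV _ hw3 c hc))
  have hTmul : ∀ a ∈ S, ∀ b ∈ S, T (a * b) = T a * T b := by
    intro a ha b hb
    have m1 := h.cc_left ha (hWV _ hwW b hb)
    have m2 := h.cc_left ha (hWV _ hw2 b hb)
    have m3 := h.cc_left ha (hWV _ hw3 b hb)
    show ⁅a * b, w⁆ * (y⁻¹ * ⁅a * b, y * w * y⁻¹⁆ * y) * (y * ⁅a * b, y⁻¹ * w * y⁆ * y⁻¹) = _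
    rw [m1, m2, m3]
    have a1 := hWV _ hwW a ha
    have a2 := hVc2 _ (hWV _ hw2 a ha)
    have a3 := hVc1 _ (hWV _ hw3 a ha)
    have b1 := hWV _ hwW b hb
    have b2 := hVc2 _ (hWV _ hw2 b hb)
    have b3 := hVc1 _ (hWV _ hw3 b hb)
    have e2 : y⁻¹ * (⁅b, y * w * y⁻¹⁆ * ⁅a, y * w * y⁻¹⁆) * y =
      (y⁻¹ * ⁅b, y * w * y⁻¹⁆ * y) * (y⁻¹ * ⁅a, y * w * y⁻¹⁆ * y) := by group
    have e3 : y * (⁅b, y⁻¹ * w * y⁆ * ⁅a, y⁻¹ * w * y⁆) * y⁻¹ =
      (y * ⁅b, y⁻¹ * w * y⁆ * y⁻¹) * (y * ⁅a, y⁻¹ * w * y⁆ * y⁻¹) := by group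
    rw [e2, e3]
    show _ = (⁅a, w⁆ * (y⁻¹ * ⁅a, y * w * y⁻¹⁆ * y) * (y * ⁅a, y⁻¹ * w * y⁆ * y⁻¹)) *
      (⁅b, w⁆ * (y⁻¹ * ⁅b, y * w * y⁻¹⁆ * y) * (y * ⁅b, y⁻¹ * w * y⁆ * y⁻¹))
    generalize ⁅a, w⁆ = p1 at *
    generalize y⁻¹ * ⁅a, y * w * y⁻¹⁆ * y = p2 at *
    generalize y * ⁅a, y⁻¹ * w * y⁆ * y⁻¹ = p3 at *
    generalize ⁅b, w⁆ = q1 at *
    generalize y⁻¹ * ⁅b, y * w * y⁻¹⁆ * y = q2 at *
    generalize y * ⁅b, y⁻¹ * w * y⁆ * y⁻¹ = q3 at *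
    calc q1 * p1 * (q2 * p2) * (q3 * p3) = (q1 * p1) * (q2 * p2) * (q3 * p3) := rfl
      _ = (p1 * q1) * (p2 * q2) * (p3 * q3) := by
          rw [h.v_comm b1 a1, h.v_comm b2 a2, h.v_comm b3 a3]
      _ = p1 * (q1 * (p2 * q2)) * (p3 * q3) := by group
      _ = p1 * ((p2 * q2) * q1) * (p3 * q3) := by rw [h.v_comm b1 (V.mul_mem a2 b2)]
      _ = p1 * p2 * (q2 * q1 * p3) * q3 := by group
      _ = p1 * p2 * (p3 * (q2 * q1)) * q3 := by rw [h.v_comm (V.mul_mem b2 b1) a3]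
      _ = p1 * p2 * p3 * (q2 * q1) * q3 := by group
      _ = p1 * p2 * p3 * (q1 * q2) * q3 := by rw [h.v_comm b2 b1]
      _ = p1 * p2 * p3 * (q1 * q2 * q3) := by group
  have hyy : y⁻¹ = y * y := Y.y3'
  have hTy : ∀ c : X, T (y * c * y⁻¹) = (y * ⁅c, y⁻¹ * w * y⁆ * y⁻¹) * ⁅c, w⁆ * (y⁻¹ * ⁅c, y * w * y⁻¹⁆ * y) := by
    intro c
    show ⁅y * c * y⁻¹, w⁆ * (y⁻¹ * ⁅y * c * y⁻¹, y * w * y⁻¹⁆ * y) * (y * ⁅y * c * y⁻¹, y⁻¹ * w * y⁆ * y⁻¹) = _
    have e1 : ⁅y * c * y⁻¹, w⁆ = y * ⁅c, y⁻¹ * w * y⁆ * y⁻¹ := by simp only [commutatorElement_def]; group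
    have e2 : y⁻¹ * ⁅y * c * y⁻¹, y * w * y⁻¹⁆ * y = ⁅c, w⁆ := by simp only [commutatorElement_def]; group
    have e3 : y * ⁅y * c * y⁻¹, y⁻¹ * w * y⁆ * y⁻¹ = y⁻¹ * ⁅c, y * w * y⁻¹⁆ * y := by
      have e4 : y * ⁅y * c * y⁻¹, y⁻¹ * w * y⁆ * y⁻¹ = (y * y) * ⁅c, (y * y)⁻¹ * w * (y * y)⁆ * (y * y)⁻¹ := by
        simp only [commutatorElement_def]; group
      rw [e4, ← hyy, inv_inv]
    rw [e1, e2, e3]
  have hTy' : ∀ c ∈ S, T (y * c * y⁻¹) = T c := by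
    intro c hc
    rw [hTy c]
    have p1 := hWV _ hwW c hc
    have p2 := hVc2 _ (hWV _ hw2 c hc)
    have p3 := hVc1 _ (hWV _ hw3 c hc)
    show _ = ⁅c, w⁆ * (y⁻¹ * ⁅c, y * w * y⁻¹⁆ * y) * (y * ⁅c, y⁻¹ * w * y⁆ * y⁻¹)
    rw [mul_assoc, h.v_comm p3 (V.mul_mem p1 p2)]
  have hTs : ∀ s ∈ S, ∀ c ∈ S, T (s * c * s⁻¹) = T c := by
    intro s hs c hc
    have h1 : T (s * c * s⁻¹) * T s = T s * T c := by
      rw [← hTmul _ (hSn.conj_mem c hc s) _ hs, ← hTmul _ hs _ hc]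
      congr 1; group
    rw [h.v_comm (hTV s hs) (hTV c hc)] at h1
    exact mul_right_cancel h1
  have hTg : ∀ g : X, ∀ c ∈ S, T (g * c * g⁻¹) = T c := by
    intro g c hc
    rcases hcos g with hg | hg | hg
    · exact hTs g hg c hc
    · have e : g * c * g⁻¹ = y * ((y⁻¹ * g) * c * (y⁻¹ * g)⁻¹) * y⁻¹ := by group
      rw [e, hTy' _ (hSn.conj_mem c hc _), hTs _ hg c hc]
    · have h1 := hTs _ hg c hc
      have e : (y * g) * c * (y * g)⁻¹ = y * (g * c * g⁻¹) * y⁻¹ := by group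
      rw [e, hTy' _ (hSn.conj_mem c hc g)] at h1
      exact h1
  -- T is trivial
  have hT2 : ∀ v' ∈ V, v' ≠ 1 → ∀ c ∈ S, T c = 1 ∨ T c = v' := by
    intro v' hv' hv'1
    have hT1 : T 1 = 1 := by
      have := hTmul 1 S.one_mem 1 S.one_mem
      rw [mul_one] at this
      exact (mul_eq_left.1 this.symm)
    let C : Subgroup X :=
      { carrier := {c | c ∈ S ∧ (T c = 1 ∨ T c = v')}
        one_mem' := ⟨S.one_mem, Or.inl hT1⟩
        mul_mem' := by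
          rintro a b ⟨ha, ha1⟩ ⟨hb, hb1⟩
          refine ⟨S.mul_mem ha hb, ?_⟩
          rw [hTmul a ha b hb]
          rcases ha1 with h2 | h2 <;> rcases hb1 with h3 | h3
          · left; rw [h2, h3, one_mul]
          · right; rw [h2, h3, one_mul]
          · right; rw [h2, h3, mul_one]
          · left; rw [h2, h3]; exact h.v2 _ hv'
        inv_mem' := by
          rintro a ⟨ha, ha1⟩
          refine ⟨S.inv_mem ha, ?_⟩
          have h2 := hTmul a ha a⁻¹ (S.inv_mem ha)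
          rw [mul_inv_cancel, hT1] at h2
          have h3 := (inv_eq_of_mul_eq_one_right h2.symm).symm
          rw [h3, h.v_inv (hTV a ha)]
          exact ha1 }
    have hCn : C.Normal := by
      refine ⟨?_⟩
      rintro c ⟨hc, hc1⟩ g
      exact ⟨hSn.conj_mem c hc g, by rw [hTg g c hc]; exact hc1⟩
    obtain ⟨P, hP⟩ := h.syl
    have hle : (P : Subgroup X) ≤ C := by
      refine le_of_idx h.noIdx P C hCn ?_
      intro s hs s' hs' hsC hs'C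
      rw [hP] at hs hs'
      refine ⟨S.mul_mem hs hs', ?_⟩
      rw [hTmul s hs s' hs']
      have hs1 : T s ≠ 1 ∧ T s ≠ v' := by
        constructor
        · intro e; exact hsC ⟨hs, Or.inl e⟩
        · intro e; exact hsC ⟨hs, Or.inr e⟩
      have hs'1 : T s' ≠ 1 ∧ T s' ≠ v' := by
        constructor
        · intro e; exact hs'C ⟨hs', Or.inl e⟩
        · intro e; exact hs'C ⟨hs', Or.inr e⟩
      rcases h.v_cases (hTV s hs) hv' hs1.1 hv'1 hs1.2 (hTV s' hs') with h4 | h4 | h4 | h4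
      · exact absurd h4 hs'1.1
      · left; rw [h4]; exact h.v2 _ (hTV s hs)
      · exact absurd h4 hs'1.2
      · right; rw [h4, ← mul_assoc, h.v2 _ (hTV s hs), one_mul]
    intro c hc
    rw [hP] at hle
    exact (hle hc).2
  have hT : ∀ c ∈ S, T c = 1 := by
    intro c hc
    rcases hT2 u Y.hu Y.hu1 c hc with h1 | h1
    · exact h1
    · rcases hT2 v Y.hv Y.hv1 c hc with h2 | h2
      · exact h2
      · exact absurd (h1.symm.trans h2) Y.huv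
  -- w₁ w₂ ≡ w₃ modulo V
  have hT1 := hT c hc
  have p1 := hWV _ hwW c hc
  have p2 := hWV _ hw2 c hc
  have p3 := hWV _ hw3 c hc
  have hsq2 : (y * w * y⁻¹) * (y * w * y⁻¹) = v := by
    rw [← Y.yu, ← Y.ww]; group
  have hsq3 : (y⁻¹ * w * y) * (y⁻¹ * w * y) = u * v := by
    have e : (y⁻¹ * w * y) * (y⁻¹ * w * y) = y⁻¹ * u * y := by rw [← Y.ww]; group
    rw [e, ← Y.norm Y.hu, Y.yu]
  have h13 : ⁅c, y⁻¹ * w * y⁆ = ⁅c, w⁆ * ⁅c, y * w * y⁻¹⁆ := by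
    have h1 : ⁅c, y⁻¹ * w * y⁆ = ⁅c, w * (y * w * y⁻¹)⁆ := by
      refine h.cc_of_sq ht ht2 htV hw3 ((h.W).mul_mem hwW hw2) hc ?_
      rw [hsq3]
      have hab := h.W_ab ht ht2 htV hwW hw2
      calc u * v = (w * w) * ((y * w * y⁻¹) * (y * w * y⁻¹)) := by rw [Y.ww, hsq2]
        _ = w * (w * (y * w * y⁻¹)) * (y * w * y⁻¹) := by group
        _ = w * ((y * w * y⁻¹) * w) * (y * w * y⁻¹) := by rw [hab]
        _ = _ := by group
    rw [h1, h.cc_right (h.W_le hwW) p2]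
  have hT1' : ⁅c, w⁆ * (y⁻¹ * ⁅c, y * w * y⁻¹⁆ * y) * (y * ⁅c, y⁻¹ * w * y⁆ * y⁻¹) = 1 := hT1
  rw [h13] at hT1' ⊢
  generalize ⁅c, w⁆ = p at *
  generalize ⁅c, y * w * y⁻¹⁆ = q at *
  -- p · q^{y⁻¹} · p^y q^y = 1, q q^y = q^{y⁻¹}
  have n2 := Y.norm p2
  have n1 := Y.norm p1
  have hpq : p * (y * p * y⁻¹) * q = 1 := by
    have e : p * (y⁻¹ * q * y) * (y * (p * q) * y⁻¹) = p * ((y⁻¹ * q * y) * (y * p * y⁻¹)) * (y * q * y⁻¹) := by group
    rw [e, h.v_comm (hVc2 _ p2) (hVc1 _ p1), ← n2] at hT1'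
    calc p * (y * p * y⁻¹) * q = p * (y * p * y⁻¹) * q * ((y * q * y⁻¹) * (y * q * y⁻¹)) := by
          rw [h.v2 _ (hVc1 _ p2), mul_one]
      _ = p * ((y * p * y⁻¹) * (q * (y * q * y⁻¹))) * (y * q * y⁻¹) := by group
      _ = 1 := hT1'
  rw [n1] at hpq
  have hq : q = y⁻¹ * p * y := by
    have := (inv_eq_of_mul_eq_one_right hpq).symm
    rw [this, h.v_inv (hVc2 _ p1)]
  refine ⟨hq, ?_⟩
  rw [hq, ← n1]
  rw [← mul_assoc, h.v2 _ p1, one_mul]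

end main

end Loc

end Cfsg.Agent.H285.Fs
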