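import Cfsg.Agent.H285.FsH
import Cfsg.Prelude.Def_Solvable

/-!
# The constrained case is impossible: summary
-/

set_option autoImplicit false

open Subgroup

namespace Cfsg.Agent.H285.Fs

variable {X : Type*} [Group X] [Finite X] {S V : Subgroup X}

/-- `X` has no normal subgroup of index two, no central involution in the normal four-group `V`, `S` has no normal
`E₈` and `C_X(Q) ≤ Q` for the largest normal 2-subgroup `Q`: then all involutions of `S` are in `V`. -/
theorem Loc.constrained (h : Loc S V) {Q : Subgroup X} (hQ : IsPGroup 2 Q) (hQn : Q.Normal)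
    (hQmax : ∀ M : Subgroup X, M.Normal → IsPGroup 2 M → M ≤ Q) (hQc : centralizer (Q : Set X) ≤ Q)
    {t : X} (ht : t ∈ S) (ht2 : t * t = 1) : t ∈ V := by
  by_contra htV
  obtain ⟨Z, hZ, hself⟩ := h.exists_Z hQ hQn hQmax hQc ht ht2 htV
  obtain ⟨u, v, y, w, Y⟩ := h.exists_Y3 hZ hself ht ht2 htV
  exact h.contra hZ hself ht ht2 htV Y

end Cfsg.Agent.H285.Fs
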