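import Cfsg.Agent.H909.KFour
import Cfsg.Agent.GH.Cov.QuatTop
import Cfsg.Agent.GH.Cov.SzMem
import Cfsg.Agent.S0892
import Cfsg.Agent.S2035
import Cfsg.Agent.S2086
import Cfsg.Agent.S2089
import Cfsg.Agent.S2092

/-!
# Perfect groups with simple central quotient and sectional 2-rank at most 4: one central involution (helper285)

* `unique_of_cyclic`: central involutions of a perfect central extension of a group with cyclic Schur multiplier.
* `comp_unique`: a 2-component `K` (of a group of sectional 2-rank at most 4): commuting involutions which centralize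
  `K` modulo `O(K)` are equal.
-/

set_option autoImplicit false

open Cfsg Subgroup

namespace Cfsg.Agent.H285.Fs

open Cfsg.Agent.GH.Defs Cfsg.Agent.Intrinsic.Basic Cfsg.Agent.GH.Comp

universe u

/-- a finite group has a copy in `Type` -/
theorem exists_type (A : Type u) [Group A] [Finite A] :
    ∃ (B : Type) (_ : Group B) (_ : Finite B), Nonempty (B ≃* A) := by
  have : Small.{0} A := inferInstance
  exact ⟨Shrink.{0} A, inferInstance, Finite.of_equiv A (equivShrink A), ⟨Shrink.mulEquiv⟩⟩

/-- an involution of a cyclic group is unique -/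
theorem cyclic_unique {C : Type*} [Group C] [Finite C] [IsCyclic C] {s t : C} (hs : s * s = 1) (ht : t * t = 1)
    (hs1 : s ≠ 1) (ht1 : t ≠ 1) : s = t := by
  classical
  have := Fintype.ofFinite C
  by_contra hne
  have h1 : ({1, s, t} : Finset C) ⊆ (Finset.univ.filter fun x : C => x ^ 2 = 1) := by
    intro x hx
    simp only [Finset.mem_insert, Finset.mem_singleton] at hx
    rw [Finset.mem_filter]
    refine ⟨Finset.mem_univ _, ?_⟩
    rcases hx with rfl | rfl | rfl
    · exact one_pow 2
    · rw [pow_two, hs]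
    · rw [pow_two, ht]
  have h2 := Finset.card_le_card h1
  have h3 : ({1, s, t} : Finset C).card = 3 := by
    rw [Finset.card_insert_of_notMem, Finset.card_insert_of_notMem, Finset.card_singleton]
    · simpa using hne
    · simp only [Finset.mem_insert, Finset.mem_singleton, not_or]
      exact ⟨fun h => hs1 h.symm, fun h => ht1 h.symm⟩
  have h4 := IsCyclic.card_pow_eq_one_le (α := C) (n := 2) (by norm_num)
  omega

/-- central involutions of a perfect central extension of a group with cyclic Schur multiplier -/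
theorem unique_of_cyclic {L : Type} [Group L] {n : ℕ} (hn : n ≠ 0) (hM : HasCyclicSchurMultiplier L n)
    {A : Type u} [Group A] [Finite A] (hp : commutator A = ⊤) (f : A →* L) (hf : Function.Surjective f)
    (hk : f.ker ≤ center A) {s t : A} (hs : s ∈ f.ker) (ht : t ∈ f.ker) (hs2 : s * s = 1) (ht2 : t * t = 1)
    (hs1 : s ≠ 1) (ht1 : t ≠ 1) : s = t := by
  obtain ⟨B, _, _, ⟨e⟩⟩ := exists_type A
  let σ : B →* L := f.comp e.toMonoidHom
  have hσ : IsStemExtension σ := by
    refine ⟨hf.comp e.surjective, ?_, ?_⟩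
    · intro b hb
      rw [mem_center_iff]
      intro g
      have h1 : e b ∈ center A := hk hb
      apply e.injective
      rw [map_mul, map_mul]
      exact mem_center_iff.mp h1 (e g)
    · have h1 : (commutator B).map e.toMonoidHom = commutator A := by
        rw [_root_.commutator_def, _root_.commutator_def, Subgroup.map_commutator, ← MonoidHom.range_eq_map,
          MonoidHom.range_eq_top.mpr e.surjective]
      have h2 : commutator B = ⊤ := by
        rw [eq_top_iff]
        intro b _
        have h3 : e b ∈ commutator A := by rw [hp]; exact Subgroup.mem_top _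
        rw [← h1] at h3
        obtain ⟨b', hb', he⟩ := h3
        have h4 : b' = b := e.injective he
        rwa [← h4]
      rw [h2]; exact le_top
  obtain ⟨π, hπ⟩ := hM.2 B σ hσ
  have : NeZero n := ⟨hn⟩
  have hcyc : IsCyclic σ.ker := isCyclic_of_surjective π hπ
  have h1 := cyclic_unique (C := σ.ker) (s := ⟨e.symm s, by
      rw [MonoidHom.mem_ker]
      show f (e (e.symm s)) = 1
      rw [e.apply_symm_apply]; exact hs⟩)
    (t := ⟨e.symm t, by
      rw [MonoidHom.mem_ker]
      show f (e (e.symm t)) = 1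
      rw [e.apply_symm_apply]; exact ht⟩)
    (Subtype.ext (by
      show e.symm s * e.symm s = 1
      rw [← map_mul, hs2, map_one]))
    (Subtype.ext (by
      show e.symm t * e.symm t = 1
      rw [← map_mul, ht2, map_one]))
    (fun h => hs1 (e.symm.injective (by
      rw [map_one]
      exact congrArg Subtype.val h)))
    (fun h => ht1 (e.symm.injective (by
      rw [map_one]
      exact congrArg Subtype.val h)))
  exact e.symm.injective (congrArg Subtype.val h1)

/-- the centre version -/
theorem unique_of_equiv {L : Type} [Group L] {n : ℕ} (hn : n ≠ 0) (hM : HasCyclicSchurMultiplier L n)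
    {A : Type u} [Group A] [Finite A] (hp : commutator A = ⊤) (e : A ⧸ center A ≃* L) {s t : A}
    (hs : s ∈ center A) (ht : t ∈ center A) (hs2 : s * s = 1) (ht2 : t * t = 1)
    (hs1 : s ≠ 1) (ht1 : t ≠ 1) : s = t := by
  have hker : (e.toMonoidHom.comp (QuotientGroup.mk' (center A))).ker = center A := by
    ext x
    rw [MonoidHom.mem_ker]
    show e (QuotientGroup.mk' (center A) x) = 1 ↔ _
    rw [e.map_eq_one_iff, ← MonoidHom.mem_ker, QuotientGroup.ker_mk']
  exact unique_of_cyclic hn hM hp (e.toMonoidHom.comp (QuotientGroup.mk' (center A)))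
    (e.surjective.comp (QuotientGroup.mk'_surjective _)) hker.le (by rwa [hker]) (by rwa [hker]) hs2 ht2 hs1 ht1

/-- The survivors other than `PSL₂(q)` and `A₇`. -/
theorem unique_of_surv {A : Type u} [Group A] [Finite A] (hp : commutator A = ⊤) (hr : SectionalPRankLE 2 4 A)
    (hS : GH.Cov.Cut.Surv (A ⧸ center A)) (h2 : ¬ IsL2odd (A ⧸ center A)) (h7 : ¬ IsAlt 7 (A ⧸ center A))
    {s t : A} (hs : s ∈ center A) (ht : t ∈ center A) (hs2 : s * s = 1) (ht2 : t * t = 1)
    (hs1 : s ≠ 1) (ht1 : t ≠ 1) : s = t := by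
  rcases hS with h | h | ⟨n, hn, -, ⟨e⟩⟩ | ⟨F, _, _, hF, ⟨e⟩⟩ | ⟨⟨e⟩⟩ | ⟨F, _, _, hF, ⟨e⟩⟩ |
    ⟨F, _, _, hF, ⟨e⟩⟩ | ⟨F, _, _, q, hF, hq, ⟨e⟩⟩
  · exact absurd h h2
  · exact absurd h h7
  · have h1 : Nat.card (center A) ≤ 2 := S0892.result n (by omega) (by omega) (by omega) (center A) le_rfl
      (by rw [hp]; exact le_top) e
    by_contra hne
    have h3 : ({1, ⟨s, hs⟩, ⟨t, ht⟩} : Set (center A)).ncard = 3 := by
      rw [Set.ncard_eq_three]
      exact ⟨1, ⟨s, hs⟩, ⟨t, ht⟩, fun h => hs1 (congrArg Subtype.val h).symm,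
        fun h => ht1 (congrArg Subtype.val h).symm, fun h => hne (congrArg Subtype.val h), rfl⟩
    have h4 := Set.ncard_le_card ({1, ⟨s, hs⟩, ⟨t, ht⟩} : Set (center A))
    omega
  · obtain ⟨π, P, B⟩ := GH.Cov.SzCover.exists_base (A := A) (F := F) (m := 1) le_rfl (by rw [hF]; norm_num) e
    rcases B.unique le_rfl hr ht1 ht2 ht s hs hs2 with h | h
    · exact absurd h hs1
    · exact h
  · exact unique_of_equiv (by norm_num) S2035.result hp e hs ht hs2 ht2 hs1 ht1
  · have hq : Fintype.card F % 2 = 1 := Nat.odd_iff.1 hF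
    have h3 : 3 ≤ Fintype.card F := by
      have := Fintype.one_lt_card (α := F)
      omega
    exact unique_of_equiv (Nat.gcd_pos_of_pos_left _ (by norm_num)).ne' (S2092.result (F := F) rfl 2 le_rfl
      (fun _ => h3) (by omega)) hp e hs ht hs2 ht2 hs1 ht1
  · have h3 : 3 ≤ Fintype.card F := by
      have := Fintype.one_lt_card (α := F)
      omega
    exact unique_of_equiv (Nat.gcd_pos_of_pos_left _ (by norm_num)).ne' (S2086.result (F := F) rfl 4 (by norm_num)
      (by omega) (by
        simp only [Set.mem_insert_iff, Set.mem_singleton_iff, Prod.mk.injEq]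
        omega)) hp e hs ht hs2 ht2 hs1 ht1
  · exact unique_of_equiv (Nat.gcd_pos_of_pos_left _ (by norm_num)).ne' (S2089.result (F := F) 4 q hF (by norm_num)
      (by omega) (by
        simp only [Set.mem_insert_iff, Set.mem_singleton_iff, Prod.mk.injEq]
        omega)) hp e hs ht hs2 ht2 hs1 ht1

variable {G : Type u} [Group G] [Finite G]

/-- the centre of a 2-component of a group of sectional 2-rank at most 4 -/
theorem comp_unique (hr : SectionalPRankLE 2 4 G) {H K : Subgroup G} (hK : IsComp H K) {s t : G} (hs : s ∈ K)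
    (ht : t ∈ K) (hsc : ∀ k ∈ K, k * s = s * k) (htc : ∀ k ∈ K, k * t = t * k) (hs2 : s * s = 1) (ht2 : t * t = 1)
    (hs1 : s ≠ 1) (ht1 : t ≠ 1) : s = t := by
  have hodd : ∀ k : K, (QuotientGroup.mk' (oddCore ↥K)) k = 1 → k * k = 1 → k = 1 := by
    intro k hk hkk
    have hk' : k ∈ oddCore ↥K := (QuotientGroup.eq_one_iff k).1 hk
    have h1 : Odd (Nat.card (oddCore ↥K)) := by
      exact Nat.coprime_two_right.1 (Cfsg.Agent.Lib.Cores.pPrimeCore_coprime (G := K) 2)
    have h2 : orderOf k ∣ Nat.card (oddCore ↥K) := by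
      have h3 := orderOf_dvd_natCard (⟨k, hk'⟩ : oddCore ↥K)
      rwa [Subgroup.orderOf_mk] at h3
    have h3 : orderOf k ∣ 2 := orderOf_dvd_of_pow_eq_one (by rw [pow_two, hkk])
    have h4 : orderOf k ∣ 1 := by
      rw [← Nat.coprime_two_right.2 (h1.of_dvd_nat h2)]
      exact Nat.dvd_gcd dvd_rfl h3
    exact orderOf_eq_one_iff.1 (Nat.dvd_one.1 h4)
  let s' : K := ⟨s, hs⟩
  let t' : K := ⟨t, ht⟩
  let φ := QuotientGroup.mk' (oddCore ↥K)
  have hs2' : s' * s' = 1 := Subtype.ext hs2
  have ht2' : t' * t' = 1 := Subtype.ext ht2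
  have hφs : φ s' ≠ 1 := fun h => hs1 (congrArg Subtype.val (hodd s' h hs2'))
  have hφt : φ t' ≠ 1 := fun h => ht1 (congrArg Subtype.val (hodd t' h ht2'))
  have hcs : φ s' ∈ center (Bar K) := by
    rw [mem_center_iff]
    intro y
    obtain ⟨k, rfl⟩ := QuotientGroup.mk'_surjective _ y
    rw [← map_mul, ← map_mul]
    exact congrArg φ (Subtype.ext (hsc k k.2))
  have hct : φ t' ∈ center (Bar K) := by
    rw [mem_center_iff]
    intro y
    obtain ⟨k, rfl⟩ := QuotientGroup.mk'_surjective _ y
    rw [← map_mul, ← map_mul]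
    exact congrArg φ (Subtype.ext (htc k k.2))
  have he : EvenCenter K := by
    rw [EvenCenter, even_iff_two_dvd]
    have h1 : orderOf (⟨φ s', hcs⟩ : center (Bar K)) = 2 := by
      rw [orderOf_eq_prime_iff]
      refine ⟨Subtype.ext ?_, fun h => hφs (congrArg Subtype.val h)⟩
      show φ s' ^ 2 = 1
      rw [pow_two, ← map_mul, hs2', map_one]
    rw [← h1]
    exact orderOf_dvd_natCard _
  by_cases h2 : IsL2odd (STop K) ∨ IsAlt 7 (STop K)
  · exact GH.Cov.QuatTop.qt_of_top hK he h2 s hs t ht hs2 ht2 hs1 ht1 (htc s hs)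
  · push Not at h2
    have hrB : SectionalPRankLE 2 4 (Bar K) := GH.Rank.of_quotient (GH.Rank.of_subgroup hr K) _
    obtain ⟨Y, i1, i2, f, hY, hf, hk, hrY⟩ := GH.Cov.Alt.exists_double hK he hr
    have hsim : IsSimpleGroup (STop K) := top_simple hK
    have hna : ¬ IsMulCommutative (STop K) := top_nonComm hK
    have hS : GH.Cov.Cut.Surv (STop K) := H909.KFour.surv hna hY f hf hk hrY
    have h3 := unique_of_surv (quasisimple hK).1.commutator_eq_top hrB hS h2.1 h2.2 hcs hct
      (by rw [← map_mul, hs2', map_one]) (by rw [← map_mul, ht2', map_one]) hφs hφt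
    have h4 : s' * t' = 1 := by
      apply hodd
      · show φ (s' * t') = 1
        rw [map_mul, h3, ← map_mul, ht2', map_one]
      · have h5 : s' * t' = t' * s' := Subtype.ext (htc s hs)
        calc s' * t' * (s' * t') = s' * (t' * s') * t' := by group
          _ = (s' * s') * (t' * t') := by rw [← h5]; group
          _ = 1 := by rw [hs2', ht2', one_mul]
    have h6 : s * t = 1 := congrArg Subtype.val h4
    rw [eq_inv_of_mul_eq_one_left h6]
    exact inv_eq_of_mul_eq_one_left ht2

end Cfsg.Agent.H285.Fs
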