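import Cfsg.Agent.H285.FsI
import Cfsg.Agent.H285.FsJ
import Cfsg.Agent.GH.QARank
import Cfsg.Agent.GH.L2NoComp
import Cfsg.Agent.Dichotomy.CoreTools
import Cfsg.Agent.Lib.GenFitting

/-!
# Components for S3102 (helper285)

* `comp_normal`: sectional 2-rank at most 4, no subgroup of index two: 2-components of `X` are normal.
* `Loc.no_comp`: a normal four-group, no normal `E₈` in `S`: no 2-component.
* `Loc.elim`: hence (with `O(X) = 1`) all involutions of `S` lie in `V`.
-/

set_option autoImplicit false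

open Cfsg Subgroup

namespace Cfsg.Agent.H285.Fs

open Cfsg.Agent.GH.Defs Cfsg.Agent.Intrinsic.Basic Cfsg.Agent.GH.Comp
open Cfsg.Agent.SignalizersComponents.IntrinsicBasic
open scoped commutatorElement

universe u

variable {X : Type u} [Group X] [Finite X]

omit [Finite X] in
theorem cj_top (g : X) : cj g (⊤ : Subgroup X) = ⊤ := by
  rw [eq_top_iff]
  intro x _
  rw [mem_cj]
  exact Subgroup.mem_top _

theorem comp_normal (hr : SectionalPRankLE 2 4 X) (hI : ∀ N : Subgroup X, N.Normal → N.index ≠ 2)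
    {K : Subgroup X} (hK : IsComp (⊤ : Subgroup X) K) : K.Normal := by
  have hcj : ∀ g : X, IsComp (⊤ : Subgroup X) (cj g K) := fun g => by
    have := hK.cj g
    rwa [cj_top] at this
  by_contra hn
  obtain ⟨g, hg⟩ : ∃ g : X, cj g K ≠ K := by
    by_contra hcon
    push Not at hcon
    refine hn ⟨fun a ha g => ?_⟩
    rw [← hcon g, mem_cj]
    have : g⁻¹ * (g * a * g⁻¹) * g = a := by group
    rwa [this]
  have hor : ∀ x, cj x K = K ∨ cj x K = cj g K := fun x => GH.QA.only_two hr hK (hcj g) (hcj x) hg.symm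
  have hidx : (normalizer (K : Set X)).index = 2 := by
    rw [index_eq_two_iff]
    refine ⟨g, fun b => ?_⟩
    rw [mem_normalizer_iff_cj, mem_normalizer_iff_cj, cj_mul]
    rcases hor b with hb | hb
    · refine Or.inr ⟨hb, fun h => hg ?_⟩
      rw [← hb] at h
      rw [hb] at h
      exact cj_injective b (h.trans hb.symm)
    · refine Or.inl ⟨?_, fun h => hg (hb.symm.trans h)⟩
      rw [← cj_mul]
      rcases hor (b * g) with h | h
      · exact h
      · rw [cj_mul, ← hb] at h
        exact absurd (hb.symm.trans (cj_injective b h)) hg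
  exact hI _ (normal_of_index_eq_two hidx) hidx

theorem perm_comm : ∀ σ τ : Equiv.Perm (Fin 3), Equiv.Perm.sign σ = 1 → Equiv.Perm.sign τ = 1 → σ * τ = τ * σ := by
  decide

variable {S V : Subgroup X}

/-- commutators centralize `V` -/
theorem Loc.comm_cent (h : Loc S V) (a b : X) {v : X} (hv : v ∈ V) : ⁅a, b⁆ * v = v * ⁅a, b⁆ := by
  rcases eq_or_ne v 1 with rfl | hv1
  · rw [mul_one, one_mul]
  obtain ⟨e⟩ := h.exists_equiv
  have h1 : h.act a * h.act b = h.act b * h.act a := by
    have h2 := perm_comm (e.permCongr (h.act a)) (e.permCongr (h.act b)) (h.sign_act e a) (h.sign_act e b)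
    apply e.permCongr.injective
    rw [← Equiv.permCongrHom_coe e, map_mul, map_mul]
    exact h2
  have h2 : h.act ⁅a, b⁆ = 1 := by
    rw [map_commutatorElement, commutatorElement_eq_one_iff_mul_comm]
    exact h1
  have h3 := h.act_apply ⁅a, b⁆ ⟨⟨v, hv⟩, fun h4 => hv1 (congrArg Subtype.val h4)⟩
  rw [h2] at h3
  have h4 : v = ⁅a, b⁆ * v * ⁅a, b⁆⁻¹ := h3
  calc ⁅a, b⁆ * v = ⁅a, b⁆ * v * ⁅a, b⁆⁻¹ * ⁅a, b⁆ := by group
    _ = v * ⁅a, b⁆ := by rw [← h4]

/-- **No 2-component.** -/
theorem Loc.no_comp (h : Loc S V) (hr : SectionalPRankLE 2 4 X) (K : Subgroup X) :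
    ¬ IsComp (⊤ : Subgroup X) K := by
  intro hK
  have hn := comp_normal hr h.noIdx hK
  obtain ⟨P, hP⟩ := h.syl
  have hp : Fact (Nat.Prime 2) := ⟨Nat.prime_two⟩
  -- an involution of `S ∩ K`
  have hne : ∃ m ∈ S ⊓ K, m ∉ (⊥ : Subgroup X) := by
    by_contra hcon
    push Not at hcon
    have h1 : ¬ (2 ∣ Nat.card K) := by
      intro h2
      obtain ⟨k, hk⟩ := exists_prime_orderOf_dvd_card' 2 h2
      have hpk : IsPGroup 2 (zpowers (k : X)) := by
        refine IsPGroup.of_card (n := 1) ?_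
        rw [Nat.card_zpowers, Subgroup.orderOf_coe, hk, pow_one]
      obtain ⟨Q, hQ⟩ := hpk.exists_le_sylow
      obtain ⟨g, hg⟩ := MulAction.exists_smul_eq X Q P
      have h3 : g * (k : X) * g⁻¹ ∈ S := by
        rw [← hP, ← hg]
        exact mem_map_of_mem (MulAut.conj g).toMonoidHom (hQ (mem_zpowers _))
      have h4 := hcon _ ⟨h3, hn.conj_mem _ k.2 g⟩
      rw [mem_bot] at h4
      have h5 : (k : X) = 1 := by
        have h6 : (k : X) = g⁻¹ * (g * (k : X) * g⁻¹) * g := by group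
        rw [h6, h4]; group
      rw [Subtype.ext (a1 := k) (a2 := 1) h5, orderOf_one] at hk
      exact absurd hk (by norm_num)
    exact h1 hK.even
  obtain ⟨m, hm, hm1, hm2, hmc⟩ := exists_mid' h.isP (A := ⊥) (M := S ⊓ K) inf_le_left
    (fun s _ a ha => by
      rw [mem_bot] at ha ⊢
      rw [ha]; group)
    (fun s hs a ha => ⟨S.mul_mem (S.mul_mem hs ha.1) (S.inv_mem hs), hn.conj_mem _ ha.2 s⟩) hne
  rw [mem_bot] at hm1 hm2
  have hmV : m ∈ V := h.kill hm.1 hm2 (fun s hs => by
    have := hmc s hs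
    rw [mem_bot] at this
    rw [this]; exact V.one_mem)
  -- `V ≤ K`
  have hVK : ∀ v ∈ V, v ∈ K := by
    intro v hv
    rcases eq_or_ne v 1 with rfl | hv1
    · exact K.one_mem
    · obtain ⟨x, -, hx⟩ := h.tr hmV hv hm1 hv1
      rw [← hx]
      exact hn.conj_mem _ hm.2 x
  -- `K` centralizes `V`
  have hc : ∀ v ∈ V, ∀ k ∈ K, k * v = v * k := by
    intro v hv k hk
    have h1 : ⁅K, K⁆ ≤ centralizer ({v} : Set X) := by
      rw [commutator_le]
      intro a _ b _
      rw [mem_centralizer_singleton_iff]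
      exact h.comm_cent a b hv
    rw [hK.perfect] at h1
    exact mem_centralizer_singleton_iff.1 (h1 hk)
  obtain ⟨u, hu, v, hv, hu1, hv1, huv⟩ := h.exists_two
  exact huv (comp_unique hr hK (hVK u hu) (hVK v hv) (hc u hu) (hc v hv) (h.v2 u hu) (h.v2 v hv) hu1 hv1)

/-- no 2-component and `O(X) = 1`: constrained -/
theorem centralizer_le_of_no_comp (hO : oddCore X = ⊥) (hc : ∀ K : Subgroup X, ¬ IsComp (⊤ : Subgroup X) K) :
    centralizer (pCore 2 X : Set X) ≤ pCore 2 X := by
  have hp : Fact (Nat.Prime 2) := ⟨Nat.prime_two⟩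
  have h1 : ∀ M : Subgroup X, ¬ IsPComponent 2 M := by
    intro M hM
    apply hc M
    refine ⟨le_top, ?_⟩
    have h2 := Cfsg.Agent.SignalizersComponents.PLayerAut.isPComponent_map_equiv 2 (topEquiv (G := X)).symm hM
    have h3 : M.map (topEquiv (G := X)).symm.toMonoidHom = M.subgroupOf ⊤ := by
      ext x
      rw [mem_subgroupOf]
      constructor
      · rintro ⟨y, hy, rfl⟩
        exact hy
      · intro hx
        exact ⟨x, hx, rfl⟩
    rwa [h3] at h2
  have h2 : pLayer 2 X = ⊥ := by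
    rw [eq_bot_iff]
    exact sSup_le fun M hM => absurd hM (h1 M)
  have h3 := Cfsg.Agent.Dichotomy.CoreTools.genFitting_eq_pCore (p := 2) (G := X) hO h2
  have h4 := Cfsg.Agent.Lib.GenFitting.centralizer_genFitting_le (G := X)
  rwa [h3] at h4

/-- **All involutions of `S` lie in `V`.** -/
theorem Loc.elim (h : Loc S V) (hr : SectionalPRankLE 2 4 X) (hO : oddCore X = ⊥) {t : X} (ht : t ∈ S)
    (ht2 : t * t = 1) : t ∈ V := by
  have hp : Fact (Nat.Prime 2) := ⟨Nat.prime_two⟩
  refine h.constrained (Q := pCore 2 X) ?_ ?_ ?_ (centralizer_le_of_no_comp hO fun K => h.no_comp hr K) ht ht2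
  · exact Cfsg.Agent.Lib.Cores.pCore_isPGroup 2
  · infer_instance
  · intro M hM hM2
    exact Cfsg.Agent.Lib.Cores.le_pCore hM hM2

end Cfsg.Agent.H285.Fs
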