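import Cfsg.Agent.H285.FsK

/-!
# The reduced situation for S3102 (helper285)

`Glob S U`: `O(X) = 1`, no central involution, no subgroup of index two, no normal `E₈` in the Sylow 2-subgroup `S`,
`U` a normal four-group of `S` with `X`-conjugate involutions, 2-rank at least 3.

* `Glob.pcore`: `O₂(X) = 1`.
* `Glob.exists_simple`: there is a simple normal nonabelian `K` with `C(K) = 1`.
-/

set_option autoImplicit false

open Cfsg Subgroup

namespace Cfsg.Agent.H285.Fs

open Cfsg.Agent.GH.Defs Cfsg.Agent.Intrinsic.Basic Cfsg.Agent.GH.Comp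
open Cfsg.Agent.SignalizersComponents.IntrinsicBasic
open scoped commutatorElement

universe u

variable {X : Type u} [Group X]

structure Glob (S U : Subgroup X) : Prop where
  syl : ∃ P : Sylow 2 X, (P : Subgroup X) = S
  noE : ∀ E : Subgroup X, E ≤ S → (∀ a ∈ E, a * a = 1) → (∀ s ∈ S, ∀ a ∈ E, s * a * s⁻¹ ∈ E) → Nat.card E ≤ 4
  noIdx : ∀ N : Subgroup X, N.Normal → N.index ≠ 2
  odd : oddCore X = ⊥
  noCen : ∀ z : X, (∀ x, x * z = z * x) → z * z = 1 → z = 1
  US : U ≤ S
  un : ∀ s ∈ S, ∀ u ∈ U, s * u * s⁻¹ ∈ U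
  u2 : ∀ u ∈ U, u * u = 1
  u4 : Nat.card U = 4
  conj : ∀ u ∈ U, ∀ v ∈ U, u ≠ 1 → v ≠ 1 → ∃ x : X, x * u * x⁻¹ = v
  rk : ∀ V : Subgroup X, V ≤ S → Nat.card V = 4 → ∃ t ∈ S, t * t = 1 ∧ t ∉ V
  sr : SectionalPRankLE 2 4 X

variable [Finite X] {S U : Subgroup X}

omit [Finite X] in
/-- an odd normal subgroup is trivial -/
theorem Glob.eq_bot_of_odd (h : Glob S U) {N : Subgroup X} (hN : N.Normal) (ho : Odd (Nat.card N)) : N = ⊥ := by
  rw [eq_bot_iff, ← h.odd]
  exact le_sSup ⟨hN, by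
    show (Nat.card N).Coprime 2
    exact Nat.coprime_two_right.2 ho⟩

/-- a normal subgroup of even order contains an involution of the centre of `S` -/
theorem Glob.exists_cen (h : Glob S U) {N : Subgroup X} (hN : N.Normal) (he : 2 ∣ Nat.card N) :
    ∃ z ∈ S, z ∈ N ∧ z ≠ 1 ∧ z * z = 1 ∧ ∀ s ∈ S, s * z = z * s := by
  have hp : Fact (Nat.Prime 2) := ⟨Nat.prime_two⟩
  obtain ⟨P, hP⟩ := h.syl
  have hS : IsPGroup 2 S := by rw [← hP]; exact P.isPGroup'
  obtain ⟨k, hk⟩ := exists_prime_orderOf_dvd_card' 2 he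
  have hpk : IsPGroup 2 (zpowers (k : X)) := by
    refine IsPGroup.of_card (n := 1) ?_
    rw [Nat.card_zpowers, Subgroup.orderOf_coe, hk, pow_one]
  obtain ⟨Q, hQ⟩ := hpk.exists_le_sylow
  obtain ⟨g, hg⟩ := MulAction.exists_smul_eq X Q P
  have h3 : g * (k : X) * g⁻¹ ∈ S := by
    rw [← hP, ← hg]
    exact mem_map_of_mem (MulAut.conj g).toMonoidHom (hQ (mem_zpowers _))
  have hne : ∃ m ∈ S ⊓ N, m ∉ (⊥ : Subgroup X) := by
    refine ⟨_, ⟨h3, hN.conj_mem _ k.2 g⟩, ?_⟩
    rw [mem_bot]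
    intro h4
    have h5 : (k : X) = 1 := by
      have h6 : (k : X) = g⁻¹ * (g * (k : X) * g⁻¹) * g := by group
      rw [h6, h4]; group
    rw [Subtype.ext (a1 := k) (a2 := 1) h5, orderOf_one] at hk
    exact absurd hk (by norm_num)
  obtain ⟨m, hm, hm1, hm2, hmc⟩ := exists_mid' hS (A := ⊥) (M := S ⊓ N) inf_le_left
    (fun s _ a ha => by
      rw [mem_bot] at ha ⊢
      rw [ha]; group)
    (fun s hs a ha => ⟨S.mul_mem (S.mul_mem hs ha.1) (S.inv_mem hs), hN.conj_mem _ ha.2 s⟩) hne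
  rw [mem_bot] at hm1 hm2
  refine ⟨m, hm.1, hm.2, hm1, hm2, fun s hs => ?_⟩
  have h4 := hmc s hs
  rw [mem_bot] at h4
  calc s * m = s * m * s⁻¹ * m⁻¹ * m * s := by group
    _ = m * s := by rw [h4, one_mul]

/-- **`O₂(X) = 1`**: a normal 2-subgroup is trivial. -/
theorem Glob.eq_bot_of_two (h : Glob S U) {N : Subgroup X} (hN : N.Normal) (h2 : IsPGroup 2 N) : N = ⊥ := by
  by_contra hne
  have hp : Fact (Nat.Prime 2) := ⟨Nat.prime_two⟩
  obtain ⟨P, hP⟩ := h.syl
  have hNS : N ≤ S := by rw [← hP]; exact normal_le h2 hN P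
  let A : Subgroup X :=
    { carrier := {z | z ∈ N ∧ (∀ y ∈ N, y * z = z * y) ∧ z * z = 1}
      one_mem' := ⟨N.one_mem, fun y _ => by rw [mul_one, one_mul], one_mul 1⟩
      mul_mem' := by
        rintro a b ⟨ha, hac, ha2⟩ ⟨hb, hbc, hb2⟩
        refine ⟨N.mul_mem ha hb, fun y hy => ?_, ?_⟩
        · rw [← mul_assoc, hac y hy, mul_assoc, hbc y hy, mul_assoc]
        · calc a * b * (a * b) = a * (b * a) * b := by group
            _ = (a * a) * (b * b) := by rw [hac b hb]; group
            _ = 1 := by rw [ha2, hb2, one_mul]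
      inv_mem' := by
        rintro a ⟨ha, hac, ha2⟩
        rw [inv_eq_of_mul_eq_one_left ha2]
        exact ⟨ha, hac, ha2⟩ }
  have hAn : A.Normal := by
    refine ⟨?_⟩
    rintro a ⟨ha, hac, ha2⟩ g
    refine ⟨hN.conj_mem _ ha g, fun y hy => ?_, ?_⟩
    · have h1 := hac (g⁻¹ * y * g) (by
        have := hN.conj_mem _ hy g⁻¹
        rwa [inv_inv] at this)
      calc y * (g * a * g⁻¹) = g * (g⁻¹ * y * g * a) * g⁻¹ := by group
        _ = g * a * g⁻¹ * y := by rw [h1]; group
    · calc g * a * g⁻¹ * (g * a * g⁻¹) = g * (a * a) * g⁻¹ := by group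
        _ = 1 := by rw [ha2]; group
  have hAS : A ≤ S := fun a ha => hNS ha.1
  -- `A ≠ 1`
  have heven : 2 ∣ Nat.card N := by
    obtain ⟨n, hn⟩ := IsPGroup.iff_card.1 h2
    rcases n with _ | n
    · rw [pow_zero] at hn
      exact absurd (Subgroup.eq_bot_of_card_eq N hn) hne
    · rw [hn, pow_succ]; exact Dvd.intro_left _ rfl
  have hA1 : ∃ a ∈ A, a ≠ 1 := by
    obtain ⟨z, hzS, hzN, hz1, hz2, hzc⟩ := h.exists_cen hN heven
    exact ⟨z, ⟨hzN, fun y hy => hzc y (hNS hy), hz2⟩, hz1⟩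
  have hA4 : Nat.card A ≤ 4 := h.noE A hAS (fun a ha => ha.2.2) (fun s _ a ha => hAn.conj_mem a ha s)
  have hA2 : IsPGroup 2 A := h2.to_le fun a ha => ha.1
  obtain ⟨n, hn⟩ := IsPGroup.iff_card.1 hA2
  obtain ⟨a, ha, ha1⟩ := hA1
  have hn2 : n ≤ 2 := by
    by_contra hcon
    have : 2 ^ 3 ≤ 2 ^ n := Nat.pow_le_pow_right (by norm_num) (by omega)
    omega
  interval_cases n
  · rw [pow_zero] at hn
    have := Subgroup.eq_bot_of_card_eq A hn
    rw [this, mem_bot] at ha
    exact ha1 ha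
  · -- a central involution
    rw [pow_one] at hn
    apply ha1
    refine h.noCen a (fun x => ?_) ha.2.2
    have h1 : x * a * x⁻¹ ∈ A := hAn.conj_mem a ha x
    obtain ⟨b, c, hbc, hu⟩ := Nat.card_eq_two_iff.1 hn
    have hall : ∀ y : A, y = b ∨ y = c := by
      intro y
      have : y ∈ ({b, c} : Set A) := by rw [hu]; trivial
      exact this
    have h2 : x * a * x⁻¹ ≠ 1 := fun h3 => ha1 (by
      have : a = x⁻¹ * (x * a * x⁻¹) * x := by group
      rw [this, h3]; group)
    have h3 : (⟨x * a * x⁻¹, h1⟩ : A) = ⟨a, ha⟩ := by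
      have e1 := hall 1
      have e2 := hall ⟨a, ha⟩
      have e3 := hall ⟨_, h1⟩
      have n1 : (⟨a, ha⟩ : A) ≠ 1 := fun h4 => ha1 (congrArg Subtype.val h4)
      have n2 : (⟨x * a * x⁻¹, h1⟩ : A) ≠ 1 := fun h4 => h2 (congrArg Subtype.val h4)
      rcases e1 with e1 | e1 <;> rcases e2 with e2 | e2 <;> rcases e3 with e3 | e3 <;>
        first
        | exact e3.trans e2.symm
        | exact absurd (e2.trans e1.symm) n1
        | exact absurd (e3.trans e1.symm) n2
    have h4 : x * a * x⁻¹ = a := congrArg Subtype.val h3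
    calc x * a = x * a * x⁻¹ * x := by group
      _ = a * x := by rw [h4]
  · -- a normal four-group
    have hL : Loc S A :=
      { syl := h.syl, noE := h.noE, noIdx := h.noIdx, vn := hAn, v2 := fun v hv => hv.2.2, v4 := hn
        nc := by
          intro v hv hv1
          by_contra hcon
          push Not at hcon
          apply hv1
          refine h.noCen v (fun x => ?_) hv.2.2
          calc x * v = x * v * x⁻¹ * x := by group
            _ = v * x := by rw [hcon x] }
    obtain ⟨t, ht, ht2, htA⟩ := h.rk A hAS hn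
    exact htA (hL.elim h.sr h.odd ht ht2)

/-- an abelian normal subgroup is trivial -/
theorem Glob.eq_bot_of_comm (h : Glob S U) {N : Subgroup X} (hN : N.Normal) (hc : ∀ a ∈ N, ∀ b ∈ N, a * b = b * a) :
    N = ⊥ := by
  have hp : Fact (Nat.Prime 2) := ⟨Nat.prime_two⟩
  let A : Subgroup X :=
    { carrier := {z | z ∈ N ∧ z * z = 1}
      one_mem' := ⟨N.one_mem, one_mul 1⟩
      mul_mem' := by
        rintro a b ⟨ha, ha2⟩ ⟨hb, hb2⟩
        refine ⟨N.mul_mem ha hb, ?_⟩
        calc a * b * (a * b) = a * (b * a) * b := by group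
          _ = (a * a) * (b * b) := by rw [hc b hb a ha]; group
          _ = 1 := by rw [ha2, hb2, one_mul]
      inv_mem' := by
        rintro a ⟨ha, ha2⟩
        rw [inv_eq_of_mul_eq_one_left ha2]
        exact ⟨ha, ha2⟩ }
  have hAn : A.Normal := by
    refine ⟨?_⟩
    rintro a ⟨ha, ha2⟩ g
    refine ⟨hN.conj_mem _ ha g, ?_⟩
    calc g * a * g⁻¹ * (g * a * g⁻¹) = g * (a * a) * g⁻¹ := by group
      _ = 1 := by rw [ha2]; group
  have hA2 : IsPGroup 2 A := by
    intro a
    refine ⟨1, ?_⟩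
    rw [pow_one, pow_two]
    exact Subtype.ext a.2.2
  have hA := h.eq_bot_of_two hAn hA2
  refine h.eq_bot_of_odd hN ?_
  rw [← Nat.not_even_iff_odd, even_iff_two_dvd]
  intro h2
  obtain ⟨k, hk⟩ := exists_prime_orderOf_dvd_card' 2 h2
  have h3 : (k : X) ∈ A := by
    refine ⟨k.2, ?_⟩
    have h4 : k ^ 2 = 1 := by rw [← hk, pow_orderOf_eq_one]
    have h5 := congrArg Subtype.val h4
    rw [pow_two] at h5
    exact h5
  rw [hA, mem_bot] at h3
  rw [Subtype.ext (a1 := k) (a2 := 1) h3, orderOf_one] at hk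
  exact absurd hk (by norm_num)

/-- **A simple normal subgroup with trivial centralizer.** -/
theorem Glob.exists_simple (h : Glob S U) : ∃ K : Subgroup X, K.Normal ∧ IsSimpleGroup K ∧
    ¬ IsMulCommutative K ∧ centralizer (K : Set X) = ⊥ := by
  have hp : Fact (Nat.Prime 2) := ⟨Nat.prime_two⟩
  obtain ⟨P, hP⟩ := h.syl
  -- a component
  obtain ⟨K, hK⟩ : ∃ K : Subgroup X, IsComp (⊤ : Subgroup X) K := by
    by_contra hcon
    push Not at hcon
    have h1 := centralizer_le_of_no_comp h.odd hcon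
    have h2 : pCore 2 X = ⊥ := h.eq_bot_of_two inferInstance (Cfsg.Agent.Lib.Cores.pCore_isPGroup 2)
    rw [h2] at h1
    obtain ⟨t, ht, ht2, htU⟩ := h.rk U h.US h.u4
    have h3 : t ∈ centralizer (((⊥ : Subgroup X) : Set X)) := by
      rw [mem_centralizer_iff]
      intro y hy
      rw [SetLike.mem_coe, mem_bot] at hy
      rw [hy, one_mul, mul_one]
    have h4 := h1 h3
    rw [mem_bot] at h4
    rw [h4] at htU
    exact htU U.one_mem
  have hn : K.Normal := comp_normal h.sr h.noIdx hK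
  -- `O(K) = 1`, `Z(K) = 1`
  have hO : oddCore ↥K = ⊥ := by
    have h1 : ((oddCore ↥K).map K.subtype).Normal := by
      have : (oddCore ↥K).Characteristic := Cfsg.Agent.Lib.Cores.pPrimeCore_characteristic 2
      exact ConjAct.normal_of_characteristic_of_normal
    have h2 := h.eq_bot_of_odd h1 (by
      rw [card_map_of_injective K.subtype_injective]
      exact Nat.coprime_two_right.1 (Cfsg.Agent.Lib.Cores.pPrimeCore_coprime (G := K) 2))
    exact (map_eq_bot_iff_of_injective _ K.subtype_injective).1 h2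
  have hZ : center ↥K = ⊥ := by
    have h1 : ((center ↥K).map K.subtype).Normal := ConjAct.normal_of_characteristic_of_normal
    have h2 := h.eq_bot_of_comm h1 (by
      rintro _ ⟨a, ha, rfl⟩ _ ⟨b, hb, rfl⟩
      exact congrArg Subtype.val (mem_center_iff.1 hb a))
    exact (map_eq_bot_iff_of_injective _ K.subtype_injective).1 h2
  -- `K` is simple
  let φ : ↥K →* STop K := (QuotientGroup.mk' (center (Bar K))).comp (QuotientGroup.mk' (oddCore ↥K))
  have hφs : Function.Surjective φ :=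
    (QuotientGroup.mk'_surjective _).comp (QuotientGroup.mk'_surjective _)
  have hmk : Function.Injective (QuotientGroup.mk' (oddCore ↥K)) := by
    rw [← MonoidHom.ker_eq_bot_iff, QuotientGroup.ker_mk', hO]
  have hφi : Function.Injective φ := by
    rw [injective_iff_map_eq_one]
    intro k hk
    have h1 : QuotientGroup.mk' (oddCore ↥K) k ∈ center (Bar K) := (QuotientGroup.eq_one_iff _).1 hk
    have h2 : k ∈ center ↥K := by
      rw [mem_center_iff]
      intro y
      apply hmk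
      rw [map_mul, map_mul]
      exact mem_center_iff.1 h1 _
    rwa [hZ, mem_bot] at h2
  let e : ↥K ≃* STop K := MulEquiv.ofBijective φ ⟨hφi, hφs⟩
  have hsim : IsSimpleGroup ↥K := by
    have := top_simple hK
    exact e.isSimpleGroup
  have hna : ¬ IsMulCommutative ↥K := by
    intro hc
    apply top_nonComm hK
    refine ⟨⟨fun a b => ?_⟩⟩
    obtain ⟨a, rfl⟩ := e.surjective a
    obtain ⟨b, rfl⟩ := e.surjective b
    rw [← map_mul, ← map_mul, hc.is_comm.comm]
  refine ⟨K, hn, hsim, hna, ?_⟩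
  -- the centralizer
  by_contra hC
  have hCn : (centralizer (K : Set X)).Normal := inferInstance
  have hCe : 2 ∣ Nat.card (centralizer (K : Set X)) := by
    by_contra h2
    exact hC (h.eq_bot_of_odd hCn (by rwa [← Nat.not_even_iff_odd, even_iff_two_dvd]))
  obtain ⟨z1, hz1S, hz1K, hz11, hz12, hz1c⟩ := h.exists_cen hn hK.even
  obtain ⟨z2, hz2S, hz2C, hz21, hz22, hz2c⟩ := h.exists_cen hCn hCe
  -- central involutions of `S` lie in `U`
  have key : ∀ z ∈ S, z * z = 1 → (∀ s ∈ S, s * z = z * s) → z ∈ U := by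
    intro z hzS hz2 hzc
    let E : Subgroup X :=
      { carrier := {x | ∃ a ∈ U, x = a ∨ x = a * z}
        one_mem' := ⟨1, U.one_mem, Or.inl rfl⟩
        mul_mem' := by
          rintro x y ⟨a, ha, hx⟩ ⟨b, hb, hy⟩
          refine ⟨a * b, U.mul_mem ha hb, ?_⟩
          have hbz : b * z = z * b := hzc b (h.US hb)
          rcases hx with rfl | rfl <;> rcases hy with rfl | rfl
          · exact Or.inl rfl
          · exact Or.inr (by group)
          · exact Or.inr (by rw [mul_assoc, ← hbz, mul_assoc])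
          · left
            calc a * z * (b * z) = a * (z * b) * z := by group
              _ = a * b * (z * z) := by rw [← hbz]; group
              _ = _ := by rw [hz2, mul_one]
        inv_mem' := by
          rintro x ⟨a, ha, hx⟩
          have haz : a * z = z * a := hzc a (h.US ha)
          rcases hx with rfl | rfl
          · exact ⟨x⁻¹, U.inv_mem ha, Or.inl rfl⟩
          · refine ⟨a⁻¹, U.inv_mem ha, Or.inr ?_⟩
            rw [haz, mul_inv_rev, inv_eq_of_mul_eq_one_left hz2] }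
    have hUE : U ≤ E := fun a ha => ⟨a, ha, Or.inl rfl⟩
    have hE4 : Nat.card E ≤ 4 := by
      refine h.noE E ?_ ?_ ?_
      · rintro x ⟨a, ha, rfl | rfl⟩
        · exact h.US ha
        · exact S.mul_mem (h.US ha) hzS
      · rintro x ⟨a, ha, rfl | rfl⟩
        · exact h.u2 _ ha
        · have haz : a * z = z * a := hzc a (h.US ha)
          calc a * z * (a * z) = a * (z * a) * z := by group
            _ = (a * a) * (z * z) := by rw [← haz]; group
            _ = 1 := by rw [h.u2 a ha, hz2, one_mul]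
      · rintro s hs x ⟨a, ha, rfl | rfl⟩
        · exact ⟨_, h.un s hs _ ha, Or.inl rfl⟩
        · refine ⟨_, h.un s hs _ ha, Or.inr ?_⟩
          have h1 : s⁻¹ * z = z * s⁻¹ := hzc _ (S.inv_mem hs)
          calc s * (a * z) * s⁻¹ = s * a * (z * s⁻¹) := by group
            _ = _ := by rw [← h1]; group
    have hEU : U = E := eq_of_le_of_card_ge hUE (by rw [h.u4]; exact hE4)
    rw [hEU]
    exact ⟨1, U.one_mem, Or.inr (one_mul z).symm⟩
  have hz1U := key z1 hz1S hz12 hz1c
  have hz2U := key z2 hz2S hz22 hz2c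
  have hKC : ∀ x ∈ K, x ∈ centralizer (K : Set X) → x = 1 := by
    intro x hx hxc
    have h1 : (⟨x, hx⟩ : ↥K) ∈ center ↥K := by
      rw [mem_center_iff]
      intro y
      exact Subtype.ext (mem_centralizer_iff.1 hxc y y.2)
    rw [hZ, mem_bot] at h1
    exact congrArg Subtype.val h1
  have hne : z1 * z2 ≠ 1 := by
    intro h1
    apply hz11
    refine hKC z1 hz1K ?_
    rw [eq_inv_of_mul_eq_one_left h1]
    exact inv_mem hz2C
  obtain ⟨x, hx⟩ := h.conj z1 hz1U (z1 * z2) (U.mul_mem hz1U hz2U) hz11 hne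
  have h1 : z1 * z2 ∈ K := by rw [← hx]; exact hn.conj_mem _ hz1K x
  have h2 : z2 ∈ K := by
    have h3 := K.mul_mem (K.inv_mem hz1K) h1
    rwa [inv_mul_cancel_left] at h3
  exact hz21 (hKC z2 h2 hz2C)

end Cfsg.Agent.H285.Fs
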