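import Cfsg.Agent.H285.FsL
import Cfsg.Agent.H816.OutEmb
import Cfsg.Agent.S0219

/-!
# Outer automorphism groups without even perfect-like sections (helper285)

`OKOut K`: every subgroup of `Out K` without normal subgroup of index two has odd order.

* `okOut_of_hom`: a homomorphism of `Out K` to a commutative group with cyclic kernel is enough.
* `Glob.le_of_okOut`: the Sylow 2-subgroup of `X` lies in the simple normal subgroup `K`.
-/

set_option autoImplicit false

open Cfsg Subgroup

namespace Cfsg.Agent.H285.Fs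

universe u v

/-- no normal subgroup of index two -/
def NoTwo (G : Type u) [Group G] : Prop := ∀ N : Subgroup G, N.Normal → N.index ≠ 2

theorem NoTwo.map {G : Type u} {H : Type v} [Group G] [Group H] (h : NoTwo G) (f : G →* H)
    (hf : Function.Surjective f) : NoTwo H := by
  intro N hN h2
  refine h (N.comap f) inferInstance ?_
  rw [index_comap_of_surjective N hf, h2]

theorem NoTwo.odd {G : Type u} [Group G] [Finite G] (h : NoTwo G) (hc : ∀ a b : G, a * b = b * a) :
    Odd (Nat.card G) := by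
  rw [← Nat.not_even_iff_odd, even_iff_two_dvd]
  intro h2
  obtain ⟨M, hM⟩ := GH.Cov.Alt.exists_index_two (C := G) hc h2
  exact h M (normal_of_index_eq_two hM) hM

theorem NoTwo.odd_of_cyclic {G : Type u} [Group G] [Finite G] (h : NoTwo G) (T : Sylow 2 G)
    (hT : IsCyclic (T : Subgroup G)) : Odd (Nat.card G) := by
  rw [← Nat.not_even_iff_odd]
  intro h2
  obtain ⟨M, hM⟩ := S0219.result h2 T hT
  exact h M (normal_of_index_eq_two hM) hM

/-- every subgroup of `Out K` without normal subgroup of index two has odd order -/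
def OKOut (K : Type u) [Group K] : Prop := ∀ H : Subgroup (Cfsg.Out K), NoTwo H → Odd (Nat.card H)

theorem OKOut.congr {K : Type u} {L : Type v} [Group K] [Group L] (e : K ≃* L) (h : OKOut L) : OKOut K := by
  obtain ⟨f⟩ := H816.OutEmb.out_congr e
  intro H hH
  have e1 : H ≃* H.map f.toMonoidHom := H.equivMapOfInjective f.toMonoidHom f.injective
  have h1 := h (H.map f.toMonoidHom) (hH.map e1.toMonoidHom e1.surjective)
  rwa [← Nat.card_congr e1.toEquiv] at h1

theorem okOut_of_hom {K : Type u} [Group K] [Finite K] {C : Type v} [CommGroup C]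
    (φ : Cfsg.Out K →* C) (hc : IsCyclic φ.ker) : OKOut K := by
  intro H hH
  have hp : Fact (Nat.Prime 2) := ⟨Nat.prime_two⟩
  have : Finite (MulAut K) := inferInstance
  have : Finite (Cfsg.Out K) := inferInstance
  let ψ : H →* C := φ.comp H.subtype
  have : Finite ψ.range := Finite.of_surjective ψ.rangeRestrict ψ.rangeRestrict_surjective
  have hr : Odd (Nat.card ψ.range) :=
    (hH.map ψ.rangeRestrict ψ.rangeRestrict_surjective).odd (fun a b => mul_comm a b)
  obtain ⟨T⟩ : Nonempty (Sylow 2 H) := inferInstance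
  have hT : ∀ x ∈ (T : Subgroup H), ψ x = 1 := by
    intro x hx
    obtain ⟨k, hk⟩ := T.isPGroup' ⟨x, hx⟩
    have h1 : (ψ.rangeRestrict x) ^ 2 ^ k = 1 := by
      rw [← map_pow]
      have h2 : x ^ 2 ^ k = 1 := congrArg Subtype.val hk
      rw [h2, map_one]
    have h2 : orderOf (ψ.rangeRestrict x) ∣ 2 ^ k := orderOf_dvd_of_pow_eq_one h1
    have h3 : orderOf (ψ.rangeRestrict x) ∣ Nat.card ψ.range := orderOf_dvd_natCard _
    have h4 : Nat.Coprime (2 ^ k) (Nat.card ψ.range) := Nat.Coprime.pow_left k (Nat.coprime_two_left.2 hr)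
    have h5 : orderOf (ψ.rangeRestrict x) = 1 := Nat.eq_one_of_dvd_coprimes h4 h2 h3
    rw [orderOf_eq_one_iff] at h5
    exact congrArg Subtype.val h5
  refine hH.odd_of_cyclic T ?_
  let g : ↥(T : Subgroup H) →* φ.ker :=
    { toFun := fun x => ⟨((x : H) : Cfsg.Out K), hT x x.2⟩
      map_one' := rfl
      map_mul' := fun _ _ => rfl }
  refine isCyclic_of_injective g ?_
  intro a b hab
  exact Subtype.ext (Subtype.ext (congrArg (fun y : φ.ker => (y : Cfsg.Out K)) hab))

theorem okOut_of_card {K : Type u} [Group K] [Finite K] (h : Nat.card (Cfsg.Out K) ≤ 2) : OKOut K := by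
  intro H hH
  have : Finite (MulAut K) := inferInstance
  have : Finite (Cfsg.Out K) := inferInstance
  have h1 : Nat.card H ≤ 2 := (Nat.le_of_dvd Nat.card_pos (card_subgroup_dvd_card H)).trans h
  have h2 : 0 < Nat.card H := Nat.card_pos
  have h3 : Nat.card H ≠ 2 := by
    intro h3
    refine hH ⊥ inferInstance ?_
    rw [index_bot, h3]
  have h4 : Nat.card H = 1 := by omega
  rw [h4]
  exact odd_one

theorem okOut_of_odd {K : Type u} [Group K] [Finite K] (h : Odd (Nat.card (Cfsg.Out K))) : OKOut K :=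
  fun H _ => h.of_dvd_nat (card_subgroup_dvd_card H)

variable {X : Type u} [Group X] {S U : Subgroup X}

/-- **`S ≤ K`.** -/
theorem Glob.le_of_okOut (h : Glob S U) {K : Subgroup X} (hn : K.Normal) (hc : centralizer (K : Set X) = ⊥)
    (hO : OKOut K) : S ≤ K := by
  have hp : Fact (Nat.Prime 2) := ⟨Nat.prime_two⟩
  obtain ⟨φ, hφ⟩ := H816.OutEmb.exists_hom K (by rw [hc]; exact bot_le)
  have h1 : Odd (Nat.card φ.range) := hO _ (NoTwo.map (G := X) h.noIdx φ.rangeRestrict φ.rangeRestrict_surjective)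
  obtain ⟨P, hP⟩ := h.syl
  intro x hx
  rw [← hφ, MonoidHom.mem_ker]
  have hS : IsPGroup 2 S := by rw [← hP]; exact P.isPGroup'
  obtain ⟨k, hk⟩ := hS ⟨x, hx⟩
  have h2 : (φ.rangeRestrict x) ^ 2 ^ k = 1 := by
    rw [← map_pow]
    have h2 : x ^ 2 ^ k = 1 := congrArg Subtype.val hk
    rw [h2, map_one]
  have h3 : orderOf (φ.rangeRestrict x) ∣ 2 ^ k := orderOf_dvd_of_pow_eq_one h2
  have h4 : orderOf (φ.rangeRestrict x) ∣ Nat.card φ.range := orderOf_dvd_natCard _
  have h5 : Nat.Coprime (2 ^ k) (Nat.card φ.range) := Nat.Coprime.pow_left k (Nat.coprime_two_left.2 h1)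
  have h6 : orderOf (φ.rangeRestrict x) = 1 := Nat.eq_one_of_dvd_coprimes h5 h3 h4
  rw [orderOf_eq_one_iff] at h6
  exact congrArg Subtype.val h6

end Cfsg.Agent.H285.Fs
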