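import Cfsg.Agent.H285.FsM
import Cfsg.Agent.H100.NormRank

/-!
# Transfer of the situation to the simple group `K` (helper285)

`Four L T W`: `T` a Sylow 2-subgroup of `L` without normal `E₈`, of rank at least 3, `W` a normal four-group of `T` with
2-central involutions.
-/

set_option autoImplicit false

open Cfsg Subgroup

namespace Cfsg.Agent.H285.Fs

open Cfsg.Agent.H100.NormRank (Lower)

universe u v

structure Four {L : Type u} [Group L] (T : Sylow 2 L) (W : Subgroup L) : Prop where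
  low : ¬ Lower ↥(T : Subgroup L) 3
  rk : ¬ PRankLE 2 2 L
  WT : W ≤ T
  w4 : Nat.card W = 4
  w2 : ∀ u ∈ W, u * u = 1
  wn : ∀ s ∈ T, ∀ u ∈ W, s * u * s⁻¹ ∈ W
  wc : ∀ u ∈ W, u ≠ 1 → Cfsg.IsTwoCentralInvolution u

theorem rank_congr {G : Type u} {H : Type v} [Group G] [Group H] {p k : ℕ} (e : G ≃* H) (h : PRankLE p k H) :
    PRankLE p k G := by
  intro A hA hAp
  rw [← Subgroup.card_map_of_injective (f := e.toMonoidHom) e.injective]
  refine h _ ⟨⟨?_⟩⟩ ?_
  · rintro ⟨_, a, ha, rfl⟩ ⟨_, b, hb, rfl⟩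
    apply Subtype.ext
    show e a * e b = e b * e a
    rw [← map_mul, ← map_mul]
    exact congrArg e (congrArg Subtype.val (hA.is_comm.comm (⟨a, ha⟩ : A) ⟨b, hb⟩))
  · rintro _ ⟨a, ha, rfl⟩
    show (e a) ^ p = 1
    rw [← map_pow, hAp a ha, map_one]

theorem rank_of_injective {G : Type u} {H : Type v} [Group G] [Group H] {p k : ℕ} (f : G →* H)
    (hf : Function.Injective f) (h : PRankLE p k H) : PRankLE p k G := by
  intro A hA hAp
  rw [← Subgroup.card_map_of_injective hf]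
  refine h _ ⟨⟨?_⟩⟩ ?_
  · rintro ⟨_, a, ha, rfl⟩ ⟨_, b, hb, rfl⟩
    apply Subtype.ext
    show f a * f b = f b * f a
    rw [← map_mul, ← map_mul]
    exact congrArg f (congrArg Subtype.val (hA.is_comm.comm (⟨a, ha⟩ : A) ⟨b, hb⟩))
  · rintro _ ⟨a, ha, rfl⟩
    show (f a) ^ p = 1
    rw [← map_pow, hAp a ha, map_one]

theorem Four.congr {K : Type u} {L : Type v} [Group K] [Group L] [Finite K] (e : K ≃* L) {T : Sylow 2 K}
    {W : Subgroup K} (h : Four T W) : ∃ (T' : Sylow 2 L) (W' : Subgroup L), Four T' W' ∧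
      Nonempty (↥(T : Subgroup K) ≃* ↥(T' : Subgroup L)) := by
  have hp : Fact (Nat.Prime 2) := ⟨Nat.prime_two⟩
  let T' : Sylow 2 L := T.mapSurjective (f := e.toMonoidHom) e.surjective
  have hT' : (T' : Subgroup L) = (T : Subgroup K).map e.toMonoidHom := rfl
  have e1 : ↥(T : Subgroup K) ≃* ↥(T' : Subgroup L) :=
    (T : Subgroup K).equivMapOfInjective e.toMonoidHom e.injective
  refine ⟨T', W.map e.toMonoidHom, ?_, ⟨e1⟩⟩
  refine ⟨fun hl => h.low (hl.congr e1.symm), fun hr => h.rk (rank_congr e hr), ?_, ?_, ?_, ?_, ?_⟩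
  · rw [hT']; exact map_mono h.WT
  · rw [card_map_of_injective e.injective]; exact h.w4
  · rintro _ ⟨u, hu, rfl⟩
    show e u * e u = 1
    rw [← map_mul, h.w2 u hu, map_one]
  · rintro s hs _ ⟨u, hu, rfl⟩
    have hs' : s ∈ (T : Subgroup K).map e.toMonoidHom := hs
    obtain ⟨s, hs0, rfl⟩ := hs'
    exact ⟨s * u * s⁻¹, h.wn s hs0 u hu, by rw [map_mul, map_mul, map_inv]⟩
  · rintro _ ⟨u, hu, rfl⟩ hu1
    obtain ⟨h1, P, hP, hc⟩ := h.wc u hu (fun h2 => hu1 (by rw [h2, map_one]))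
    refine ⟨?_, P.mapSurjective (f := e.toMonoidHom) e.surjective, ⟨u, hP, rfl⟩, ?_⟩
    · rw [orderOf_injective e.toMonoidHom e.injective]; exact h1
    · intro x hx
      have hx' : x ∈ (P : Subgroup K).map e.toMonoidHom := hx
      obtain ⟨x, hx0, rfl⟩ := hx'
      show e x * e u = e u * e x
      rw [← map_mul, ← map_mul, hc x hx0]

variable {X : Type u} [Group X] [Finite X] {S U : Subgroup X}

/-- **The situation in `K`.** -/
theorem Glob.four (h : Glob S U) (hr3 : ¬ PRankLE 2 2 ↥S) {K : Subgroup X} (hn : K.Normal) (hSK : S ≤ K) :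
    ∃ (T : Sylow 2 ↥K) (W : Subgroup ↥K), Four T W ∧ Nonempty (↥S ≃* ↥(T : Subgroup ↥K)) := by
  have hp : Fact (Nat.Prime 2) := ⟨Nat.prime_two⟩
  obtain ⟨P, hP⟩ := h.syl
  have hPK : (P : Subgroup X) ≤ K := by rw [hP]; exact hSK
  let T : Sylow 2 ↥K := P.subtype hPK
  have hT : (T : Subgroup ↥K) = (P : Subgroup X).subgroupOf K := rfl
  have e1 : ↥S ≃* ↥(T : Subgroup ↥K) := by
    refine (MulEquiv.subgroupCongr hP.symm).trans ?_
    exact (subgroupOfEquivOfLe hPK).symm
  have hUK : U ≤ K := h.US.trans hSK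
  refine ⟨T, U.subgroupOf K, ?_, ⟨e1⟩⟩
  have hS : IsPGroup 2 S := by rw [← hP]; exact P.isPGroup'
  refine ⟨?_, ?_, ?_, ?_, ?_, ?_, ?_⟩
  · -- no normal `E₈`
    intro hl
    obtain ⟨E, hEn, hE2, hE8⟩ := hl.congr e1.symm
    rw [Cfsg.Agent.H100.NormRank.elemAb_iff] at hE2
    have h1 := h.noE (E.map S.subtype) (map_subtype_le E) (by
      rintro _ ⟨a, ha, rfl⟩
      exact congrArg Subtype.val (hE2.2 a ha)) (by
      rintro s hs _ ⟨a, ha, rfl⟩
      exact ⟨_, hEn.conj_mem a ha ⟨s, hs⟩, rfl⟩)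
    rw [card_map_of_injective S.subtype_injective] at h1
    have h2 : 2 ^ 3 ≤ Nat.card E := hE8
    omega
  · -- rank
    intro hr
    exact hr3 (rank_of_injective (inclusion hSK) (inclusion_injective hSK) hr)
  · intro x hx
    have h1 : (x : X) ∈ (P : Subgroup X) := by rw [hP]; exact h.US (mem_subgroupOf.1 hx)
    exact h1
  · rw [Nat.card_congr (subgroupOfEquivOfLe hUK).toEquiv]; exact h.u4
  · intro u hu
    exact Subtype.ext (h.u2 _ (mem_subgroupOf.1 hu))
  · intro s hs u hu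
    have hs' : (s : X) ∈ S := by
      rw [← hP]; exact mem_subgroupOf.1 hs
    exact mem_subgroupOf.2 (h.un _ hs' _ (mem_subgroupOf.1 hu))
  · intro u hu hu1
    have hu0 : (u : X) ∈ U := mem_subgroupOf.1 hu
    have hu10 : (u : X) ≠ 1 := fun h1 => hu1 (Subtype.ext h1)
    obtain ⟨z, hz, hz1, -, hzc⟩ := exists_mid' hS (A := ⊥) (M := U) h.US
      (fun s _ a ha => by
        rw [mem_bot] at ha ⊢
        rw [ha]; group) h.un ⟨u, hu0, by rwa [mem_bot]⟩
    rw [mem_bot] at hz1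
    obtain ⟨x, hx⟩ := h.conj z hz u hu0 hz1 hu10
    refine ⟨?_, ?_⟩
    · exact orderOf_eq_prime (by rw [pow_two]; exact Subtype.ext (h.u2 _ hu0)) hu1
    · have hQK : ((x • P : Sylow 2 X) : Subgroup X) ≤ K := by
        rintro _ ⟨y, hy, rfl⟩
        exact hn.conj_mem _ (hPK hy) x
      refine ⟨(x • P).subtype hQK, ?_, ?_⟩
      · show (u : X) ∈ ((x • P : Sylow 2 X) : Subgroup X)
        rw [← hx]
        exact mem_map_of_mem (MulAut.conj x).toMonoidHom (by rw [hP]; exact h.US hz)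
      · intro y hy
        have hy' : (y : X) ∈ ((x • P : Sylow 2 X) : Subgroup X) := hy
        obtain ⟨y0, hy0, hy1⟩ := hy'
        have hy2 : x * y0 * x⁻¹ = (y : X) := hy1
        have hy0' : y0 ∈ S := by rw [← hP]; exact hy0
        have h1 : y0 * z = z * y0 := by
          have := hzc y0 hy0'
          rw [mem_bot] at this
          calc y0 * z = y0 * z * y0⁻¹ * z⁻¹ * z * y0 := by group
            _ = z * y0 := by rw [this, one_mul]
        apply Subtype.ext
        show (y : X) * u = u * y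
        rw [← hy2, ← hx]
        calc x * y0 * x⁻¹ * (x * z * x⁻¹) = x * (y0 * z) * x⁻¹ := by group
          _ = x * z * x⁻¹ * (x * y0 * x⁻¹) := by rw [h1]; group

end Cfsg.Agent.H285.Fs
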