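import Cfsg.Agent.H285.FsN
import Cfsg.Agent.Transfer.PGroupNormal
import Cfsg.Agent.S0501

/-!
# Reduction of S3102 to `O(X) = 1` (helper285)
-/

set_option autoImplicit false

open Cfsg Subgroup

namespace Cfsg.Agent.H285.Fs

universe u

variable {X : Type u} [Group X] [Finite X]

theorem oddCore_odd (X : Type u) [Group X] [Finite X] : Odd (Nat.card (oddCore X)) :=
  Nat.coprime_two_right.1 (Cfsg.Agent.Lib.Cores.pPrimeCore_coprime (G := X) 2)

/-- a 2-element of `O(X)` is trivial -/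
theorem eq_one_of_oddCore {x : X} (hx : x ∈ oddCore X) {k : ℕ} (hk : x ^ 2 ^ k = 1) : x = 1 := by
  have h1 : orderOf x ∣ 2 ^ k := orderOf_dvd_of_pow_eq_one hk
  have h2 : orderOf x ∣ Nat.card (oddCore X) := by
    have := orderOf_dvd_natCard (⟨x, hx⟩ : oddCore X)
    rwa [Subgroup.orderOf_mk] at this
  have h3 : Nat.Coprime (2 ^ k) (Nat.card (oddCore X)) :=
    Nat.Coprime.pow_left k (Nat.coprime_two_left.2 (oddCore_odd X))
  exact orderOf_eq_one_iff.1 (Nat.eq_one_of_dvd_coprimes h3 h1 h2)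

theorem exists_glob (hidx : ∀ N : Subgroup X, N.Normal → N.index ≠ 2)
    (hiso : ∀ z : X, ¬ Cfsg.IsIsolatedInvolution z) (S : Sylow 2 X) (h3 : ¬ Cfsg.PRankLE 2 2 ↥(S : Subgroup X))
    (h8 : ∀ E : Subgroup ↥(S : Subgroup X), E.Normal → Cfsg.IsElementaryAbelian 2 E → Nat.card ↥E ≠ 8)
    (U : Subgroup ↥(S : Subgroup X)) (hU : IsKleinFour ↥U) (hUn : U.Normal)
    (hconj : ∀ u ∈ U, ∀ v ∈ U, u ≠ 1 → v ≠ 1 → IsConj (u : X) (v : X)) :
    ∃ (Y : Type u) (_ : Group Y) (_ : Finite Y) (S' U' : Subgroup Y), Glob S' U' ∧ ¬ PRankLE 2 2 ↥S' ∧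
      Nonempty (↥(S : Subgroup X) ≃* ↥S') := by
  have hp : Fact (Nat.Prime 2) := ⟨Nat.prime_two⟩
  let π : X →* X ⧸ oddCore X := QuotientGroup.mk' (oddCore X)
  have hπs : Function.Surjective π := QuotientGroup.mk'_surjective _
  have hπk : ∀ x : X, π x = 1 ↔ x ∈ oddCore X := fun x => QuotientGroup.eq_one_iff x
  let f : ↥(S : Subgroup X) →* X ⧸ oddCore X := π.comp (S : Subgroup X).subtype
  have hf : Function.Injective f := by
    rw [injective_iff_map_eq_one]
    intro s hs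
    obtain ⟨k, hk⟩ := S.isPGroup' s
    exact Subtype.ext (eq_one_of_oddCore ((hπk _).1 hs) (k := k) (congrArg Subtype.val hk))
  let S' : Subgroup (X ⧸ oddCore X) := f.range
  let e : ↥(S : Subgroup X) ≃* ↥S' := MonoidHom.ofInjective hf
  have he : ∀ s, ((e s : S') : X ⧸ oddCore X) = π s := fun s => rfl
  have hS' : S' = (S : Subgroup X).map π := by
    ext y
    constructor
    · rintro ⟨s, rfl⟩; exact ⟨s, s.2, rfl⟩
    · rintro ⟨s, hs, rfl⟩; exact ⟨⟨s, hs⟩, rfl⟩
  have hr' : ¬ PRankLE 2 2 ↥S' := fun h => h3 (rank_congr e h)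
  -- no normal elementary abelian subgroup of order more than four
  have hno : ∀ E : Subgroup ↥(S : Subgroup X), E.Normal → Cfsg.IsElementaryAbelian 2 E → Nat.card ↥E ≤ 4 := by
    intro E hE hE2
    by_contra hcon
    push Not at hcon
    have hE2' : IsPGroup 2 E := S.isPGroup'.to_subgroup E
    obtain ⟨n, hn⟩ := IsPGroup.iff_card.1 hE2'
    have h5 : 2 ^ 3 ≤ Nat.card E := by
      rw [hn] at hcon ⊢
      refine Nat.pow_le_pow_right (by norm_num) ?_
      by_contra h6
      have : 2 ^ n ≤ 2 ^ 2 := Nat.pow_le_pow_right (by norm_num) (by omega)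
      omega
    obtain ⟨M, hM, hME, hM8⟩ := Cfsg.Agent.Transfer.PGroupNormal.exists_normal_le_card S.isPGroup' hE h5
    refine h8 M hM ?_ hM8
    rw [Cfsg.Agent.H100.NormRank.elemAb_iff] at hE2 ⊢
    exact ⟨fun a ha b hb => hE2.1 a (hME ha) b (hME hb), fun a ha => hE2.2 a (hME ha)⟩
  refine ⟨X ⧸ oddCore X, inferInstance, inferInstance, S', U.map f, ?_, hr', ⟨e⟩⟩
  have hU4 : Nat.card U = 4 := hU.card_four
  have hU2 : ∀ u ∈ U, u * u = 1 := by
    intro u hu
    have h1 := hU.exponent_two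
    have h2 := Monoid.pow_exponent_eq_one (⟨u, hu⟩ : U)
    rw [h1, pow_two] at h2
    exact congrArg Subtype.val h2
  refine ⟨⟨S.mapSurjective hπs, hS'.symm⟩, ?_, ?_, ?_, ?_, ?_, ?_, ?_, ?_, ?_, ?_, ?_⟩
  · -- noE
    intro E hES hE2 hEn
    let E0 : Subgroup ↥(S : Subgroup X) := (E.subgroupOf S').map e.symm.toMonoidHom
    have h1 : Nat.card E0 = Nat.card E := by
      rw [card_map_of_injective e.symm.injective, Nat.card_congr (subgroupOfEquivOfLe hES).toEquiv]
    rw [← h1]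
    refine hno E0 ?_ ?_
    · have h2 : (E.subgroupOf S').Normal := by
        refine ⟨fun a ha g => ?_⟩
        exact hEn g g.2 a ha
      exact h2.map _ e.symm.surjective
    · rw [Cfsg.Agent.H100.NormRank.elemAb_iff]
      have hsq : ∀ a ∈ E0, a * a = 1 := by
        rintro _ ⟨a, ha, rfl⟩
        rw [← map_mul]
        have h3 : a * a = 1 := Subtype.ext (hE2 a ha)
        rw [h3, map_one]
      refine ⟨?_, hsq⟩
      intro a ha b hb
      have h3 : ∀ w ∈ E0, w⁻¹ = w := fun w hw => inv_eq_of_mul_eq_one_right (hsq w hw)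
      have h4 := h3 _ (E0.mul_mem ha hb)
      rw [mul_inv_rev, h3 a ha, h3 b hb] at h4
      exact h4.symm
  · -- noIdx
    exact NoTwo.map hidx π hπs
  · -- O = 1
    exact Cfsg.Agent.Lib.Cores.pPrimeCore_quotient_pPrimeCore 2
  · -- no central involution
    intro z hzc hz2
    by_contra hz1
    obtain ⟨y, rfl⟩ := hπs z
    -- an involution above `z`
    have hev : y * y ∈ oddCore X := by rw [← hπk, map_mul, hz2]
    obtain ⟨m, hm⟩ := oddCore_odd X
    have hy1 : (y * y) ^ (2 * m + 1) = 1 := by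
      have h1 : (⟨y * y, hev⟩ : oddCore X) ^ (2 * m + 1) = 1 := by rw [← hm]; exact pow_card_eq_one'
      exact congrArg Subtype.val h1
    let t := y ^ (2 * m + 1)
    have ht2 : t * t = 1 := by
      show y ^ (2 * m + 1) * y ^ (2 * m + 1) = 1
      rw [← pow_add, ← two_mul, pow_mul, pow_two]
      exact hy1
    have hty : π t = π y := by
      show π (y ^ (2 * m + 1)) = π y
      rw [map_pow, pow_succ, pow_mul, pow_two, hz2, one_pow, one_mul]
    have ht1 : t ≠ 1 := fun h => hz1 (by rw [← hty, h, map_one])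
    refine hiso t ⟨orderOf_eq_prime (by rw [pow_two]; exact ht2) ht1, fun g hg => ?_⟩
    -- `t` commutes with `g t g⁻¹`
    have h1 : g * t * g⁻¹ * t ∈ oddCore X := by
      rw [← hπk, map_mul, map_mul, map_mul, map_inv, hty, hzc (π g), mul_assoc (π y) (π g) (π g)⁻¹, mul_inv_cancel,
        mul_one, hz2]
    have h2 : g * t * g⁻¹ * t = 1 := by
      refine eq_one_of_oddCore h1 (k := 1) ?_
      rw [pow_one, pow_two]
      have h3 : t * (g * t * g⁻¹) = g * t * g⁻¹ * t := hg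
      calc g * t * g⁻¹ * t * (g * t * g⁻¹ * t) = g * t * g⁻¹ * (t * (g * t * g⁻¹)) * t := by group
        _ = g * (t * t) * g⁻¹ * (t * t) := by rw [h3]; group
        _ = 1 := by rw [ht2]; group
    rw [eq_inv_of_mul_eq_one_left h2]
    exact inv_eq_of_mul_eq_one_left ht2
  · rintro _ ⟨u, -, rfl⟩; exact ⟨u, rfl⟩
  · rintro _ ⟨s, rfl⟩ _ ⟨u, hu, rfl⟩
    refine ⟨s * u * s⁻¹, hUn.conj_mem u hu s, ?_⟩
    rw [map_mul, map_mul, map_inv]
  · rintro _ ⟨u, hu, rfl⟩
    rw [← map_mul, hU2 u hu, map_one]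
  · rw [card_map_of_injective hf]; exact hU4
  · rintro _ ⟨u, hu, rfl⟩ _ ⟨v, hv, rfl⟩ hu1 hv1
    obtain ⟨c, hc⟩ := isConj_iff.1 (hconj u hu v hv (fun h => hu1 (by rw [h, map_one]))
      (fun h => hv1 (by rw [h, map_one])))
    refine ⟨π c, ?_⟩
    show π c * π (u : X) * (π c)⁻¹ = π (v : X)
    rw [← hc, map_mul, map_mul, map_inv]
  · -- rank
    intro V hVS hV4
    by_contra hcon
    push Not at hcon
    apply hr'
    intro A _ hAp
    have h1 : Nat.card (A.map S'.subtype) ≤ Nat.card V := by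
      refine card_le_of_le ?_
      rintro _ ⟨a, ha, rfl⟩
      refine hcon _ a.2 ?_
      have h2 := congrArg Subtype.val (hAp a ha)
      rw [pow_two] at h2
      exact h2
    rw [card_map_of_injective S'.subtype_injective, hV4] at h1
    exact h1
  · -- sectional rank
    have h1 : SectionalPRankLE 2 4 ↥(S : Subgroup X) :=
      S0501.result S.isPGroup' fun A hA hAc hA2 => hno A hA ⟨hAc, hA2⟩
    exact GH.Rank.of_quotient ((GH.Rank.sylow_iff S).1 h1) _

end Cfsg.Agent.H285.Fs
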